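import Cfsg.Agent.Cl.OLow
import Cfsg.Agent.Cl.UStd

/-!
# `PΩ⁻₆(q) ≅ PSU₄(q)`
-/

set_option autoImplicit false
set_option linter.unusedSimpArgs false
set_option linter.unnecessarySeqFocus false

namespace Cfsg.Agent.Cl

namespace Uni

variable {F : Type*} [Field F] [StarRing F] {V : Type*} [AddCommGroup V] [Module F V]
variable {h : HForm F V}

/-- The Eichler subgroup is generated by the Eichler transformations based at `e` and `f`. -/
theorem Hyp.EG_le (nt : NT F) (nd : Nondeg h) {e f : V} (H : Hyp h e f) (K : Subgroup (UG h))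
    (hHe : ∀ w β (C : EC h e w β), h f w = 0 → eich h e w β C ∈ K)
    (hHf : ∀ w β (C : EC h f w β), h e w = 0 → eich h f w β C ∈ K) : EG h ≤ K := by
  rw [EG, Subgroup.closure_le]
  rintro _ ⟨u, v, β, C, rfl⟩
  obtain ⟨η, hη, a, b, hab⟩ := H.move nt nd K hHe hHf u
  suffices hs : ∃ η ∈ K, η * eich h u v β C * η⁻¹ ∈ K by
    obtain ⟨η, hη, key⟩ := hs
    have := K.mul_mem (K.mul_mem (K.inv_mem hη) key) hη
    simpa [mul_assoc] using this
  by_cases ha : a = 0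
  · refine ⟨η, hη, ?_⟩
    have e1 : η.1 u = b • f := by rw [hab, ha]; simp
    rw [conj_eich, eich_congr _ (by rw [← e1]; exact C.map η) e1 rfl rfl]
    exact H.symm.eich_mem_of hHf _ _ _ _
  · have k4 := (C.map η).hu
    rw [hab] at k4
    simp [H.hee, H.hff, H.hef, H.hfe] at k4
    have h0' : star a ≠ 0 := star_ne_zero.mpr ha
    have hb : b / a + star (b / a) = 0 := by
      rw [star_div₀]; field_simp; linear_combination k4
    refine ⟨_, K.mul_mem (hHf 0 _ (EC.zero H.hff hb) (by simp)) hη, ?_⟩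
    have e1 : (eich h f 0 _ (EC.zero H.hff hb) * η).1 u = a • e := by
      rw [UG.mul_apply, hab, H.tv_apply' hb]; simp [ha]
    rw [conj_eich, eich_congr _ (by rw [← e1]; exact C.map _) e1 rfl rfl]
    exact H.eich_mem_of hHe _ _ _ _

theorem Hyp.pr_pr_eq_zero [FiniteDimensional F V] {e f e' f' : V} (H : Hyp h e f)
    (H' : Hyp h e' f') (h1 : h e e' = 0) (h2 : h e f' = 0) (h3 : h f e' = 0) (h4 : h f f' = 0)
    (hV : Module.finrank F V = 4) (x : V) : pr h e' f' (pr h e f x) = 0 := by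
  have h1' := h.eq_zero_symm h1
  have h2' := h.eq_zero_symm h2
  have h3' := h.eq_zero_symm h3
  have h4' := h.eq_zero_symm h4
  have li : LinearIndependent F ![e, f, e', f'] := by
    rw [Fintype.linearIndependent_iff]
    intro g hg
    have k1 := congrArg (fun x => h x f) hg
    have k2 := congrArg (fun x => h x e) hg
    have k3 := congrArg (fun x => h x f') hg
    have k4 := congrArg (fun x => h x e') hg
    simp [Fin.sum_univ_four, H.hee, H.hff, H.hef, H.hfe, H'.hee, H'.hff, H'.hef, H'.hfe, h1, h2,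
      h3, h4, h1', h2', h3', h4'] at k1 k2 k3 k4
    intro i; fin_cases i <;> assumption
  have ht := li.span_eq_top_of_card_eq_finrank (by simp [hV])
  have hx : x ∈ Submodule.span F (Set.range ![e, f, e', f']) := ht ▸ Submodule.mem_top
  rw [Submodule.mem_span_range_iff_exists_fun] at hx
  obtain ⟨c, rfl⟩ := hx
  simp [pr, Fin.sum_univ_four, H.hee, H.hff, H.hef, H.hfe, H'.hee, H'.hff, H'.hef, H'.hfe, h1, h2,
    h3, h4, h1', h2', h3', h4']
  abel

end Uni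

namespace Orth

variable {F : Type*} [Field F] {K : Type*} [Field K] [StarRing K]
variable {V : Type*} [AddCommGroup V] [Module K V]

/-- a four-dimensional unitary space with a hyperbolic basis -/
structure UFour (a b : F) (h : Uni.HForm K V) where
  /-- the field extension -/
  E : QExt a b K
  /-- basis -/
  e0 : V
  /-- basis -/
  f0 : V
  /-- basis -/
  e1 : V
  /-- basis -/
  f1 : V
  /-- an element of trace zero -/
  δ : K
  hδ : δ ≠ 0
  hs : star δ = -δ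
  H0 : Uni.Hyp h e0 f0
  H1 : Uni.Hyp h e1 f1
  ee : h e0 e1 = 0
  ef : h e0 f1 = 0
  fe : h f0 e1 = 0
  ff : h f0 f1 = 0
  span : ∀ x, Uni.pr h e1 f1 (Uni.pr h e0 f0 x) = 0

namespace UFour

variable {a b : F} {h : Uni.HForm K V} (P : UFour a b h)

theorem ee' : h P.e1 P.e0 = 0 := h.eq_zero_symm P.ee
theorem ef' : h P.f1 P.e0 = 0 := h.eq_zero_symm P.ef
theorem fe' : h P.e1 P.f0 = 0 := h.eq_zero_symm P.fe
theorem ff' : h P.f1 P.f0 = 0 := h.eq_zero_symm P.ff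

/-- the alternating form attached to a vector of the orthogonal space -/
def biv (x : HV F 2 (Fin 2 → F)) (u v : V) : K :=
  P.E.σ (x.1 0) * (h u P.f0 * h v P.f1 - h u P.f1 * h v P.f0)
  - P.E.σ (x.2.1 0) * (h u P.e0 * h v P.e1 - h u P.e1 * h v P.e0)
  + P.E.κ x.2.2 * (h u P.f0 * h v P.e0 - h u P.e0 * h v P.f0)
  + star (P.E.κ x.2.2) * (h u P.f1 * h v P.e1 - h u P.e1 * h v P.f1)
  + P.δ * P.E.σ (x.1 1) * (h u P.f0 * h v P.e1 - h u P.e1 * h v P.f0)
  - P.δ⁻¹ * P.E.σ (x.2.1 1) * (h u P.f1 * h v P.e0 - h u P.e0 * h v P.f1)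

theorem biv_injective : Function.Injective P.biv := by
  intro x y hxy
  have k1 := congrFun (congrFun hxy P.e0) P.e1
  have k2 := congrFun (congrFun hxy P.f0) P.f1
  have k3 := congrFun (congrFun hxy P.e0) P.f0
  have k4 := congrFun (congrFun hxy P.e0) P.f1
  have k5 := congrFun (congrFun hxy P.e1) P.f0
  simp [biv, P.H0.hee, P.H0.hff, P.H0.hef, P.H0.hfe, P.H1.hee, P.H1.hff, P.H1.hef, P.H1.hfe, P.ee,
    P.ef, P.fe, P.ff, P.ee', P.ef', P.fe', P.ff', P.hδ] at k1 k2 k3 k4 k5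
  refine Prod.ext (funext fun i => ?_) (Prod.ext (funext fun i => ?_) (P.E.κ_injective k3)) <;>
    fin_cases i
  exacts [P.E.σ.injective k1, P.E.σ.injective k4, P.E.σ.injective k2, P.E.σ.injective k5]

theorem relE0 (c : F) (C) (x : HV F 2 (Fin 2 → F)) (u v : V) :
    P.biv x ((Uni.eich h P.e0 0 (P.E.σ c * P.δ⁻¹) C).1 u) ((Uni.eich h P.e0 0 (P.E.σ c * P.δ⁻¹) C).1 v) =
    P.biv ((eich (HS 2 (Q2 a b)) (hF F _ 0) (c • hF F _ 1) (hyp_HS _).hf (by rw [hF_B]; simp [hF])).1 x) u v := by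
  have := P.hδ
  simp [biv, Uni.eich_apply, eich_apply, HS_B, HS_apply, hE, hF, P.H0.hee, P.H0.hff, P.H0.hef,
    P.H0.hfe, P.H1.hee, P.H1.hff, P.H1.hef, P.H1.hfe, P.ee, P.ef, P.fe, P.ff, P.ee', P.ef', P.fe',
    P.ff', P.hs, QExt.σ_B, QExt.σ_Q2, QExt.κ_sub, QExt.κ_smul, QExt.κ_add, QExt.κ_zero, P.E.star_σ]
  field_simp
  ring

theorem relF0 (c : F) (C) (x : HV F 2 (Fin 2 → F)) (u v : V) :
    P.biv x ((Uni.eich h P.f0 0 (-(P.E.σ c * P.δ)) C).1 u) ((Uni.eich h P.f0 0 (-(P.E.σ c * P.δ)) C).1 v) =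
    P.biv ((eich (HS 2 (Q2 a b)) (hE F _ 0) (c • hE F _ 1) (hyp_HS _).he (by rw [hE_B]; simp [hE])).1 x) u v := by
  have := P.hδ
  simp [biv, Uni.eich_apply, eich_apply, HS_B, HS_apply, hE, hF, P.H0.hee, P.H0.hff, P.H0.hef,
    P.H0.hfe, P.H1.hee, P.H1.hff, P.H1.hef, P.H1.hfe, P.ee, P.ef, P.fe, P.ff, P.ee', P.ef', P.fe',
    P.ff', P.hs, QExt.σ_B, QExt.σ_Q2, QExt.κ_sub, QExt.κ_smul, QExt.κ_add, QExt.κ_zero, P.E.star_σ]
  field_simp
  ring

theorem relE1 (c : F) (C) (x : HV F 2 (Fin 2 → F)) (u v : V) :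
    P.biv x ((Uni.eich h P.e1 0 (P.E.σ c * P.δ) C).1 u) ((Uni.eich h P.e1 0 (P.E.σ c * P.δ) C).1 v) =
    P.biv ((eich (HS 2 (Q2 a b)) (hF F _ 0) (c • hE F _ 1) (hyp_HS _).hf (by rw [hF_B]; simp [hE])).1 x) u v := by
  have := P.hδ
  simp [biv, Uni.eich_apply, eich_apply, HS_B, HS_apply, hE, hF, P.H0.hee, P.H0.hff, P.H0.hef,
    P.H0.hfe, P.H1.hee, P.H1.hff, P.H1.hef, P.H1.hfe, P.ee, P.ef, P.fe, P.ff, P.ee', P.ef', P.fe',
    P.ff', P.hs, QExt.σ_B, QExt.σ_Q2, QExt.κ_sub, QExt.κ_smul, QExt.κ_add, QExt.κ_zero, P.E.star_σ]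
  field_simp
  ring

theorem relF1 (c : F) (C) (x : HV F 2 (Fin 2 → F)) (u v : V) :
    P.biv x ((Uni.eich h P.f1 0 (-(P.E.σ c * P.δ⁻¹)) C).1 u) ((Uni.eich h P.f1 0 (-(P.E.σ c * P.δ⁻¹)) C).1 v) =
    P.biv ((eich (HS 2 (Q2 a b)) (hE F _ 0) (c • hF F _ 1) (hyp_HS _).he (by rw [hE_B]; simp [hF])).1 x) u v := by
  have := P.hδ
  simp [biv, Uni.eich_apply, eich_apply, HS_B, HS_apply, hE, hF, P.H0.hee, P.H0.hff, P.H0.hef,
    P.H0.hfe, P.H1.hee, P.H1.hff, P.H1.hef, P.H1.hfe, P.ee, P.ef, P.fe, P.ff, P.ee', P.ef', P.fe',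
    P.ff', P.hs, QExt.σ_B, QExt.σ_Q2, QExt.κ_sub, QExt.κ_smul, QExt.κ_add, QExt.κ_zero, P.E.star_σ]
  field_simp
  ring

theorem relEE (c : Fin 2 → F) (C) (x : HV F 2 (Fin 2 → F)) (u v : V) :
    P.biv x ((Uni.eich h P.e0 (P.E.κ c • P.e1) 0 C).1 u) ((Uni.eich h P.e0 (P.E.κ c • P.e1) 0 C).1 v) =
    P.biv ((eich (HS 2 (Q2 a b)) (hF F _ 0) (0, 0, c) (hyp_HS _).hf (by simp [hF_B])).1 x) u v := by
  have := P.hδ
  simp [biv, Uni.eich_apply, eich_apply, HS_B, HS_apply, hE, hF, P.H0.hee, P.H0.hff, P.H0.hef,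
    P.H0.hfe, P.H1.hee, P.H1.hff, P.H1.hef, P.H1.hfe, P.ee, P.ef, P.fe, P.ff, P.ee', P.ef', P.fe',
    P.ff', P.hs, QExt.σ_B, QExt.σ_Q2, QExt.κ_sub, QExt.κ_smul, QExt.κ_add, QExt.κ_zero, P.E.star_σ]
  field_simp
  ring

theorem relEF (c : Fin 2 → F) (C) (x : HV F 2 (Fin 2 → F)) (u v : V) :
    P.biv x ((Uni.eich h P.e0 ((P.δ⁻¹ * P.E.κ c) • P.f1) 0 C).1 u) ((Uni.eich h P.e0 ((P.δ⁻¹ * P.E.κ c) • P.f1) 0 C).1 v) =
    P.biv ((eich (HS 2 (Q2 a b)) (hF F _ 1) (0, 0, c) (hyp_HS _).hf (by simp [hF_B])).1 x) u v := by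
  have := P.hδ
  simp [biv, Uni.eich_apply, eich_apply, HS_B, HS_apply, hE, hF, P.H0.hee, P.H0.hff, P.H0.hef,
    P.H0.hfe, P.H1.hee, P.H1.hff, P.H1.hef, P.H1.hfe, P.ee, P.ef, P.fe, P.ff, P.ee', P.ef', P.fe',
    P.ff', P.hs, QExt.σ_B, QExt.σ_Q2, QExt.κ_sub, QExt.κ_smul, QExt.κ_add, QExt.κ_zero, P.E.star_σ]
  field_simp
  ring

theorem relFE (c : Fin 2 → F) (C) (x : HV F 2 (Fin 2 → F)) (u v : V) :
    P.biv x ((Uni.eich h P.f0 ((-(P.δ * P.E.κ c)) • P.e1) 0 C).1 u) ((Uni.eich h P.f0 ((-(P.δ * P.E.κ c)) • P.e1) 0 C).1 v) =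
    P.biv ((eich (HS 2 (Q2 a b)) (hE F _ 1) (0, 0, c) (hyp_HS _).he (by simp [hE_B])).1 x) u v := by
  have := P.hδ
  simp [biv, Uni.eich_apply, eich_apply, HS_B, HS_apply, hE, hF, P.H0.hee, P.H0.hff, P.H0.hef,
    P.H0.hfe, P.H1.hee, P.H1.hff, P.H1.hef, P.H1.hfe, P.ee, P.ef, P.fe, P.ff, P.ee', P.ef', P.fe',
    P.ff', P.hs, QExt.σ_B, QExt.σ_Q2, QExt.κ_sub, QExt.κ_smul, QExt.κ_add, QExt.κ_zero, P.E.star_σ]
  field_simp
  ring

theorem relFF (c : Fin 2 → F) (C) (x : HV F 2 (Fin 2 → F)) (u v : V) :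
    P.biv x ((Uni.eich h P.f0 (P.E.κ c • P.f1) 0 C).1 u) ((Uni.eich h P.f0 (P.E.κ c • P.f1) 0 C).1 v) =
    P.biv ((eich (HS 2 (Q2 a b)) (hE F _ 0) (0, 0, c) (hyp_HS _).he (by simp [hE_B])).1 x) u v := by
  have := P.hδ
  simp [biv, Uni.eich_apply, eich_apply, HS_B, HS_apply, hE, hF, P.H0.hee, P.H0.hff, P.H0.hef,
    P.H0.hfe, P.H1.hee, P.H1.hff, P.H1.hef, P.H1.hfe, P.ee, P.ef, P.fe, P.ff, P.ee', P.ef', P.fe',
    P.ff', P.hs, QExt.σ_B, QExt.σ_Q2, QExt.κ_sub, QExt.κ_smul, QExt.κ_add, QExt.κ_zero, P.E.star_σ]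
  field_simp
  ring

theorem eq_of_orth {w : V} (h1 : h P.e0 w = 0) (h2 : h P.f0 w = 0) :
    w = h w P.f1 • P.e1 + h w P.e1 • P.f1 := by
  have := P.span w
  rw [show Uni.pr h P.e0 P.f0 w = w by simp [Uni.pr, h.eq_zero_symm h1, h.eq_zero_symm h2]] at this
  conv_lhs => rw [Uni.eq_pr (h := h) P.e1 P.f1 w, this, add_zero]

include P in
theorem exists_hom (nd : Uni.Nondeg h) (h0 : Rad0 (Q2 a b)) :
    ∃ φ : Uni.EG h →* OG (HS 2 (Q2 a b)), φ.range = EG _ := by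
  have hδ := P.hδ
  have nt : Uni.NT K := by
    by_contra H
    have H' : ∀ z : K, star z = z := fun z => not_not.mp fun hz => H ⟨z, hz⟩
    obtain ⟨x, hx⟩ := P.E.fix _ (H' P.E.ω)
    exact one_ne_zero (neg_eq_zero.mp (P.E.inj x (-1) (by simp [hx])).2)
  refine (exists_hom_of_act (fun (g : Uni.EG h) (X : V → V → K) u v => X ((g⁻¹).1.1 u) ((g⁻¹).1.1 v))
    (by simp) (by simp) P.biv P.biv_injective (fun H hH => ?_)
    (fun H hH => ?_)).imp fun _ h => h.1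
  · have key : ∀ {u w : V} {β : K} (C : Uni.EC h u w β), ∀ η ∈ EG (HS 2 (Q2 a b)),
        (∀ x s t, P.biv x ((Uni.eich h u w β C).1 s) ((Uni.eich h u w β C).1 t) =
          P.biv (η.1 x) s t) → Uni.eich h u w β C ∈ H.map (Uni.EG h).subtype := by
      intro u w β C η hη hR
      refine ⟨⟨_, Uni.eich_mem_EG C⟩, ?_, rfl⟩
      rw [SetLike.mem_coe, ← inv_mem_iff]
      exact hH _ η hη fun x => funext fun s => funext fun t => hR x s t
    have : Uni.EG h ≤ H.map (Uni.EG h).subtype := by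
      refine P.H0.EG_le nt nd _ (fun w β C hw => ?_) (fun w β C hw => ?_)
      · refine Uni.eich_mem_of_eichPar P.H0.hee (fun β hb => ?_) ?_ C
        · obtain ⟨c, hc⟩ := P.E.fix (β * P.δ) (by
            rw [star_mul', P.hs]; linear_combination -P.δ * hb)
          obtain rfl : β = P.E.σ c * P.δ⁻¹ := by rw [hc]; field_simp
          exact key _ _ (eich_mem_EG _ _) (P.relE0 c _)
        · rw [P.eq_of_orth C.hv hw]
          obtain ⟨c, hc⟩ := P.E.κ_surjective (h w P.f1)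
          obtain ⟨d, hd⟩ := P.E.κ_surjective (P.δ * h w P.e1)
          rw [← hc, show h w P.e1 = P.δ⁻¹ * P.E.κ d by rw [hd]; field_simp]
          exact AddSubgroup.add_mem _ (Or.inr ⟨0, ⟨P.H0.hee, by simp [P.ee], by simp [P.H1.hee]⟩,
            key _ _ (eich_mem_EG _ _) (P.relEE c _)⟩) (Or.inr ⟨0, ⟨P.H0.hee, by simp [P.ef],
            by simp [P.H1.hff]⟩, key _ _ (eich_mem_EG _ _) (P.relEF d _)⟩)
      · refine Uni.eich_mem_of_eichPar P.H0.hff (fun β hb => ?_) ?_ C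
        · obtain ⟨c, hc⟩ := P.E.fix (-(β * P.δ⁻¹)) (by
            rw [star_neg, star_mul', star_inv₀, P.hs]; field_simp; linear_combination hb)
          obtain rfl : β = -(P.E.σ c * P.δ) := by rw [hc]; field_simp
          exact key _ _ (eich_mem_EG _ _) (P.relF0 c _)
        · rw [P.eq_of_orth hw C.hv]
          obtain ⟨c, hc⟩ := P.E.κ_surjective (-(P.δ⁻¹ * h w P.f1))
          obtain ⟨d, hd⟩ := P.E.κ_surjective (h w P.e1)
          rw [← hd, show h w P.f1 = -(P.δ * P.E.κ c) by rw [hc]; field_simp]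
          exact AddSubgroup.add_mem _ (Or.inr ⟨0, ⟨P.H0.hff, by simp [P.fe], by simp [P.H1.hee]⟩,
            key _ _ (eich_mem_EG _ _) (P.relFE c _)⟩) (Or.inr ⟨0, ⟨P.H0.hff, by simp [P.ff],
            by simp [P.H1.hff]⟩, key _ _ (eich_mem_EG _ _) (P.relFF d _)⟩)
    rw [eq_top_iff]
    intro g _
    obtain ⟨n, hn, hng⟩ := this g.2
    have : n = g := Subtype.ext hng
    exact this ▸ hn
  · have key : ∀ {u w : V} {β : K} (C : Uni.EC h u w β) (η : OG (HS 2 (Q2 a b))),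
        (∀ x s t, P.biv x ((Uni.eich h u w β C).1 s) ((Uni.eich h u w β C).1 t) =
          P.biv (η.1 x) s t) → η ∈ H := fun C η hR =>
      hH (⟨_, Uni.eich_mem_EG C⟩ : Uni.EG h)⁻¹ η fun x => funext fun s => funext fun t => hR x s t
    refine (hyp_HS 0).EG_le (rad0_HS h0) H (fun w h1 h2 => ?_) (fun w h1 h2 => ?_)
    · rw [← mem_eichPar_iff, eq_of_orth_two h1 h2]
      exact AddSubgroup.add_mem _ (AddSubgroup.add_mem _
        ⟨_, key (Uni.EC.zero P.H0.hff (by simp [P.hs, P.E.star_σ])) _ (P.relF0 _ _)⟩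
        ⟨_, key (Uni.EC.zero P.H1.hff (by simp [P.hs, P.E.star_σ])) _ (P.relF1 _ _)⟩)
        ⟨_, key ⟨P.H0.hff, by simp [P.ff], by simp [P.H1.hff]⟩ _ (P.relFF _ _)⟩
    · rw [← mem_eichPar_iff, eq_of_orth_two h1 h2]
      exact AddSubgroup.add_mem _ (AddSubgroup.add_mem _
        ⟨_, key (Uni.EC.zero P.H1.hee (by simp [P.hs, P.E.star_σ])) _ (P.relE1 _ _)⟩
        ⟨_, key (Uni.EC.zero P.H0.hee (by simp [P.hs, P.E.star_σ])) _ (P.relE0 _ _)⟩)
        ⟨_, key ⟨P.H0.hee, by simp [P.ee], by simp [P.H1.hee]⟩ _ (P.relEE _ _)⟩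

end UFour

/-- transport of a quadratic extension along an isomorphism -/
def QExt.congr {a b : F} {K' : Type*} [Field K'] [StarRing K'] (E : QExt a b K) (e : K ≃+* K')
    (he : ∀ z, e (star z) = star (e z)) : QExt a b K' where
  σ := (e : K →+* K').comp E.σ
  ω := e E.ω
  star_σ x := by simp [← he, E.star_σ]
  tr := by simp [← he, E.tr]
  nm := by simp [← he, ← E.nm]
  inj x y h := E.inj x y (e.injective (by simpa using h))
  surj z := by
    obtain ⟨x, y, h⟩ := E.surj (e.symm z)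
    exact ⟨x, y, by simpa using congrArg e h⟩
  fix z hz := by
    obtain ⟨x, h⟩ := E.fix (e.symm z) (e.injective (by simp [he, hz]))
    exact ⟨x, by simp [h]⟩

theorem pomega_six_minus_equiv [Fintype F] (H : Uni.IsFrob K (Fintype.card F)) {a b : F}
    (hab : Aniso a b) : Nonempty (Cfsg.POmega F (Cfsg.quadFormMinus 2 F a b) ≃*
      Cfsg.PSU 4 K (Fintype.card F)) := by
  have := hab.fact
  have := H.fin
  have := Fintype.ofFinite (K0 a b)
  have := Fintype.ofFinite K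
  let e : K0 a b ≃+* K := FiniteField.ringEquivOfCardEq (by
    rw [← Nat.card_eq_fintype_card, ← Nat.card_eq_fintype_card, card_K0, H.card,
      Nat.card_eq_fintype_card])
  obtain ⟨δ, hδ, hs⟩ := H.nt.exists_delta
  obtain ⟨ω, hω⟩ := H.nt.exists_omega
  obtain ⟨c, hc⟩ := H.exists_norm (c := -1) (by simp)
  have H0 : Uni.Hyp (Uni.stdH K 4) ![1, c, 0, 0] ![ω, -(star ω * c), 0, 0] :=
    ⟨by simp [Uni.stdH_apply, Fin.sum_univ_four, hc], by
      simp [Uni.stdH_apply, Fin.sum_univ_four]; linear_combination ω * star ω * hc, by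
      simp [Uni.stdH_apply, Fin.sum_univ_four]; linear_combination hω - ω * hc⟩
  have H1 : Uni.Hyp (Uni.stdH K 4) ![0, 0, 1, c] ![0, 0, ω, -(star ω * c)] :=
    ⟨by simp [Uni.stdH_apply, Fin.sum_univ_four, hc], by
      simp [Uni.stdH_apply, Fin.sum_univ_four]; linear_combination ω * star ω * hc, by
      simp [Uni.stdH_apply, Fin.sum_univ_four]; linear_combination hω - ω * hc⟩
  let P : UFour a b (Uni.stdH K 4) :=
    { E := (qextK0 a b hab.disc_ne).congr e fun z => by rw [star_eq_pow, map_pow, H.star_eq]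
      e0 := _, f0 := _, e1 := _, f1 := _, δ := δ, hδ := hδ, hs := hs, H0 := H0, H1 := H1
      ee := by simp [Uni.stdH_apply, Fin.sum_univ_four]
      ef := by simp [Uni.stdH_apply, Fin.sum_univ_four]
      fe := by simp [Uni.stdH_apply, Fin.sum_univ_four]
      ff := by simp [Uni.stdH_apply, Fin.sum_univ_four]
      span := H0.pr_pr_eq_zero H1 (by simp [Uni.stdH_apply, Fin.sum_univ_four])
        (by simp [Uni.stdH_apply, Fin.sum_univ_four]) (by simp [Uni.stdH_apply, Fin.sum_univ_four])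
        (by simp [Uni.stdH_apply, Fin.sum_univ_four]) (by simp) }
  obtain ⟨φ, hφ⟩ := P.exists_hom (Uni.nondeg_stdH 4) hab.rad0
  have := Uni.isSimpleGroup_EG H.nt (Uni.nondeg_stdH 4) H0 (H.EG_perfect (by omega) (by omega))
  obtain ⟨ψ⟩ := nonempty_quotCenter_equiv_of_simple φ _ hφ
    (center_EG_ne_top (rad0_HS hab.rad0) (hyp_HS 0) (by rw [finrank_HV]; omega))
  exact ⟨(pomegaEquiv (oMinus 2 a b) (commutator_HS hab.bnondeg (by omega) (by simp))).trans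
    (ψ.symm.trans (quotCenterEquiv (H.suEquivEG (n := 4) (by omega))).symm)⟩

end Orth

end Cfsg.Agent.Cl
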