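import Cfsg.Agent.Cl.OOrders
import Cfsg.Agent.Cl.Congr
import Cfsg.Agent.Cl.SLSimple
import Cfsg.Agent.Cl.SpSimple

/-!
# Low-dimensional orthogonal groups
-/

set_option autoImplicit false
set_option linter.unusedSimpArgs false
set_option linter.unnecessarySeqFocus false

namespace Cfsg.Agent.Cl

section graph

variable {G A : Type*} [Group G] [Group A]

theorem exists_hom_range_of_graph (R : Subgroup (G × A)) (E : Subgroup A)
    (hfun : ∀ η, ((1 : G), η) ∈ R → η = 1)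
    (hG : ∀ H : Subgroup G, (∀ g, ∀ η ∈ E, (g, η) ∈ R → g ∈ H) → H = ⊤)
    (hE : ∀ H : Subgroup A, (∀ g η, (g, η) ∈ R → η ∈ H) → E ≤ H) :
    ∃ φ : G →* A, φ.range = E ∧ ∀ g, (g, φ g) ∈ R := by
  obtain ⟨φ, hφ⟩ := exists_hom_of_graph (R ⊓ E.comap (MonoidHom.snd G A))
    (hG _ fun g η hη h => ⟨(g, η), ⟨h, hη⟩, rfl⟩) (fun k hk => hfun k hk.1)
  refine ⟨φ, le_antisymm ?_ (hE _ fun g η h => ⟨g, ?_⟩), fun g => (hφ g).1⟩
  · rintro _ ⟨g, rfl⟩
    exact (hφ g).2
  · have := R.mul_mem (R.inv_mem h) (hφ g).1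
    rw [Prod.inv_mk, Prod.mk_mul_mk, inv_mul_cancel] at this
    exact (inv_mul_eq_one.mp (hfun _ this)).symm

theorem nonempty_quotCenter_equiv_of_simple (φ : G →* A) (E : Subgroup A) (hs : φ.range = E)
    [hG : IsSimpleGroup (G ⧸ Subgroup.center G)] (hE : Subgroup.center E ≠ ⊤) :
    Nonempty (G ⧸ Subgroup.center G ≃* E ⧸ Subgroup.center E) := by
  subst hs
  refine nonempty_quotCenter_equiv_of_surj φ.rangeRestrict φ.rangeRestrict_surjective
    fun g hg => ?_
  let N := (Subgroup.center φ.range).comap φ.rangeRestrict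
  have hN : (N.map (QuotientGroup.mk' (Subgroup.center G))).Normal :=
    Subgroup.Normal.map inferInstance _ (QuotientGroup.mk'_surjective _)
  rcases hG.eq_bot_or_eq_top_of_normal _ hN with h | h
  · have : QuotientGroup.mk' (Subgroup.center G) g ∈ N.map (QuotientGroup.mk' _) := ⟨g, hg, rfl⟩
    rw [h, Subgroup.mem_bot] at this
    exact (QuotientGroup.eq_one_iff g).mp this
  · exfalso
    apply hE
    rw [eq_top_iff]
    intro y _
    obtain ⟨x, rfl⟩ := φ.rangeRestrict_surjective y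
    have : QuotientGroup.mk' (Subgroup.center G) x ∈ N.map (QuotientGroup.mk' _) :=
      h ▸ Subgroup.mem_top _
    obtain ⟨n, hn, hnx⟩ := this
    have hz : n⁻¹ * x ∈ Subgroup.center G := QuotientGroup.eq.mp hnx
    have : x = n * (n⁻¹ * x) := by group
    rw [this, map_mul]
    refine Subgroup.mul_mem _ hn ?_
    rw [Subgroup.mem_center_iff] at hz ⊢
    intro y
    obtain ⟨y, rfl⟩ := φ.rangeRestrict_surjective y
    rw [← map_mul, hz, map_mul]

theorem nonempty_quotCenter_prod : Nonempty ((G × A) ⧸ Subgroup.center (G × A) ≃*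
    (G ⧸ Subgroup.center G) × (A ⧸ Subgroup.center A)) := by
  let ψ := (QuotientGroup.mk' (Subgroup.center G)).prodMap (QuotientGroup.mk' (Subgroup.center A))
  have hψ : Function.Surjective ψ :=
    (QuotientGroup.mk'_surjective _).prodMap (QuotientGroup.mk'_surjective _)
  have hk : Subgroup.center (G × A) = ψ.ker := by
    rw [MonoidHom.ker_prodMap, QuotientGroup.ker_mk', QuotientGroup.ker_mk', Subgroup.center_prod]
  exact ⟨(QuotientGroup.quotientMulEquivOfEq hk).trans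
    (QuotientGroup.quotientKerEquivOfSurjective ψ hψ)⟩

end graph

namespace Orth

open Matrix

variable {F : Type*} [Field F]

section rel

variable {V : Type*} [AddCommGroup V] [Module F V] {G M : Type*} [Group G]

/-- pairs `(g, η)` acting compatibly along `ι` -/
def actRel (Q : QuadraticForm F V) (ρ : G → M → M) (h1 : ∀ x, ρ 1 x = x)
    (hm : ∀ g g' x, ρ (g * g') x = ρ g (ρ g' x)) (ι : V → M) : Subgroup (G × OG Q) where
  carrier := {p | ∀ v, ρ p.1 (ι v) = ι (p.2.1 v)}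
  one_mem' v := h1 _
  mul_mem' {p p'} hp hp' v := by
    change ρ (p.1 * p'.1) _ = ι (p.2.1 (p'.2.1 v))
    rw [hm, hp', hp]
  inv_mem' {p} hp v := by
    change ρ p.1⁻¹ _ = ι ((p.2⁻¹).1 v)
    conv_lhs => rw [← OG.apply_inv_apply p.2 v, ← hp, ← hm, inv_mul_cancel, h1]

theorem exists_hom_of_act {Q : QuadraticForm F V} (ρ : G → M → M) (h1 : ∀ x, ρ 1 x = x)
    (hm : ∀ g g' x, ρ (g * g') x = ρ g (ρ g' x)) (ι : V → M) (hι : Function.Injective ι)
    (hG : ∀ H : Subgroup G, (∀ g, ∀ η ∈ EG Q, (∀ v, ρ g (ι v) = ι (η.1 v)) → g ∈ H) → H = ⊤)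
    (hE : ∀ H : Subgroup (OG Q), (∀ g (η : OG Q), (∀ v, ρ g (ι v) = ι (η.1 v)) → η ∈ H) →
      EG Q ≤ H) :
    ∃ φ : G →* OG Q, φ.range = EG Q ∧ ∀ g v, ρ g (ι v) = ι ((φ g).1 v) :=
  exists_hom_range_of_graph (actRel Q ρ h1 hm ι) (EG Q)
    (fun η hη => OG.ext' fun v => hι ((hη v).symm.trans (h1 _))) hG hE

end rel

/-! ### Dimension three -/

/-- symmetric `2 × 2` matrices -/
def sym2 (v : HV F 1 F) : Matrix (Fin 2) (Fin 2) F := !![v.1 0, v.2.2; v.2.2, -v.2.1 0]

theorem sym2_injective : Function.Injective (sym2 (F := F)) := by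
  rintro ⟨x, y, z⟩ ⟨x', y', z'⟩ h
  simp [sym2] at h
  obtain ⟨⟨h1, h2⟩, -, h3⟩ := h
  refine Prod.ext (funext fun i => ?_) (Prod.ext (funext fun i => ?_) h2) <;> fin_cases i <;> assumption

theorem sym2_rel01 (c : F) (hw) (v : HV F 1 F) :
    (SpecialLinearGroup.transvection (zero_ne_one' (Fin 2)) c).1 * sym2 v *
      (SpecialLinearGroup.transvection (zero_ne_one' (Fin 2)) c).1ᵀ =
    sym2 ((eich (HS 1 (Q1 F)) (hE F F 0) (0, 0, c) (hyp_HS 0).he hw).1 v) := by
  ext i j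
  fin_cases i <;> fin_cases j <;>
    simp [sym2, eich_apply, HS_B, HS_apply, hE, Q1_B, Q1_apply, SpecialLinearGroup.transvection,
      Matrix.transvection, Matrix.mul_apply, Fin.sum_univ_two] <;> ring

theorem sym2_rel10 (c : F) (hw) (v : HV F 1 F) :
    (SpecialLinearGroup.transvection (one_ne_zero' (Fin 2)) (-c)).1 * sym2 v *
      (SpecialLinearGroup.transvection (one_ne_zero' (Fin 2)) (-c)).1ᵀ =
    sym2 ((eich (HS 1 (Q1 F)) (hF F F 0) (0, 0, c) (hyp_HS 0).hf hw).1 v) := by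
  ext i j
  fin_cases i <;> fin_cases j <;>
    simp [sym2, eich_apply, HS_B, HS_apply, hF, Q1_B, Q1_apply, SpecialLinearGroup.transvection,
      Matrix.transvection, Matrix.mul_apply, Fin.sum_univ_two] <;> ring

theorem eq_of_orth_one {W : Type*} [AddCommGroup W] [Module F W] {Q0 : QuadraticForm F W}
    {w : HV F 1 W} (h1 : B (HS 1 Q0) (hE F W 0) w = 0) (h2 : B (HS 1 Q0) (hF F W 0) w = 0) :
    w = (0, 0, w.2.2) := by
  rw [hE_B] at h1
  rw [hF_B] at h2
  refine Prod.ext (funext fun i => ?_) (Prod.ext (funext fun i => ?_) rfl) <;> fin_cases i <;>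
    assumption

theorem commutator_HS_one {W : Type*} [AddCommGroup W] [Module F W] [Module.Finite F W]
    {Q0 : QuadraticForm F W} (hB : BNondeg Q0) (ha : ∀ w, Q0 w = 0 → w = 0)
    (hd : 1 ≤ Module.finrank F W) : commutator (OG (HS 1 Q0)) = EG (HS 1 Q0) := by
  refine (hyp_HS 0).commutator_eq_of_le (bnondeg_HS hB).rad0 (by rw [finrank_HV]; omega)
    ((hyp_HS 0).EG_le_commutator_of_aniso (bnondeg_HS hB).rad0 fun w h1 h2 hw =>
      ⟨fun h => hw ?_, (bnondeg_HS hB).exists_B_ne hw⟩)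
  rw [eq_of_orth_one h1 h2] at h ⊢
  rw [ha w.2.2 (by simpa [HS_apply] using h)]; rfl

theorem fin_two_cases {P : ∀ i j : Fin 2, i ≠ j → Prop} (h1 : P 0 1 (zero_ne_one' _))
    (h2 : P 1 0 (one_ne_zero' _)) (i j : Fin 2) (h : i ≠ j) : P i j h := by
  fin_cases i <;> fin_cases j
  exacts [absurd rfl h, h1, h2, absurd rfl h]

theorem exists_hom_sym2 : ∃ φ : SpecialLinearGroup (Fin 2) F →* OG (HS 1 (Q1 F)),
    φ.range = EG _ ∧ ∀ g v, g.1 * sym2 v * g.1ᵀ = sym2 ((φ g).1 v) := by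
  refine exists_hom_of_act (fun (g : SpecialLinearGroup (Fin 2) F) X => g.1 * X * g.1ᵀ)
    (by simp) (by simp [Matrix.mul_assoc]) sym2 sym2_injective (fun H hH => ?_) (fun H hH => ?_)
  · refine sl_eq_top_of_transvection_mem _ (fin_two_cases (fun c => ?_) fun c => ?_)
    · exact hH _ _ (eich_mem_EG _ _) (sym2_rel01 c (by simp [hE_B]))
    · rw [← neg_neg c]
      exact hH _ _ (eich_mem_EG _ _) (sym2_rel10 (-c) (by simp [hF_B]))
  · refine (hyp_HS 0).EG_le (rad0_HS rad0_Q1) H (fun w h1 h2 => ?_) (fun w h1 h2 => ?_)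
    · rw [eich_congr _ _ (hyp_HS 0).he (by simp [hE_B]) rfl (eq_of_orth_one h1 h2)]
      exact hH _ _ (sym2_rel01 _ _)
    · rw [eich_congr _ _ (hyp_HS 0).hf (by simp [hF_B]) rfl (eq_of_orth_one h1 h2)]
      exact hH _ _ (sym2_rel10 _ _)

theorem sl2_mem_center_of {g : SpecialLinearGroup (Fin 2) F} (h1 : g.1 0 1 = 0) (h2 : g.1 1 0 = 0)
    (h3 : g.1 0 0 = g.1 1 1) : g ∈ Subgroup.center (SpecialLinearGroup (Fin 2) F) := by
  rw [Subgroup.mem_center_iff]
  intro k
  ext i j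
  fin_cases i <;> fin_cases j <;>
    simp [Matrix.mul_apply, Fin.sum_univ_two, h1, h2, h3, mul_comm]

theorem pomega_three_equiv (h2 : (2 : F) ≠ 0) :
    Nonempty (Cfsg.POmega F (Cfsg.quadFormOdd 1 F) ≃* ProjectiveSpecialLinearGroup (Fin 2) F) := by
  obtain ⟨φ, hφ, hR⟩ := exists_hom_sym2 (F := F)
  have hB := bnondeg_HS (m := 1) (bnondeg_Q1 h2)
  obtain ⟨e⟩ := nonempty_quotCenter_equiv_of_range φ _ hφ fun g hg => by
    have hg' : φ g ∈ EG _ := hφ ▸ ⟨g, rfl⟩
    obtain ⟨c, hc⟩ : ∃ c : F, ∀ x, (φ g).1 x = c • x := by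
      rcases ((hyp_HS 0).mem_center_iff hB (by rw [finrank_HV]; simp) ⟨φ g, hg'⟩).mp
        (Subgroup.mem_center_iff.mpr fun η => Subtype.ext (hg η η.2).symm) with h | h
      · exact ⟨1, fun x => by simp only at h; simp [h]⟩
      · exact ⟨-1, fun x => by simp only at h; simp [h, negO_apply]⟩
    have k1 := hR g (hE F F 0)
    have k2 := hR g (hF F F 0)
    have k3 := hR g (0, 0, 1)
    rw [hc] at k1 k2 k3
    have a1 := congrFun (congrFun k1 0) 0
    have a2 := congrFun (congrFun k1 1) 1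
    have a3 := congrFun (congrFun k2 0) 0
    have a4 := congrFun (congrFun k3 0) 1
    have hd := g.2
    rw [det_fin_two] at hd
    simp [sym2, hE, hF, Matrix.mul_apply, Fin.sum_univ_two] at a1 a2 a3 a4
    simp only [a2, a3, mul_zero, zero_mul, sub_zero, add_zero, zero_add] at a4 hd
    refine sl2_mem_center_of a3 a2 (mul_left_cancel₀ (left_ne_zero_of_mul_eq_one hd) ?_)
    rw [a1, a4]
  exact ⟨(pomegaEquiv (oOdd 1 F) (commutator_HS_one (bnondeg_Q1 h2)
    (fun w hw => by simpa [Q1_apply] using hw) (by simp))).trans e.symm⟩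

/-! ### Dimension four, plus type -/

/-- all `2 × 2` matrices -/
def full2 (v : HV F 2 PUnit.{1}) : Matrix (Fin 2) (Fin 2) F := !![v.1 0, v.1 1; -v.2.1 1, v.2.1 0]

theorem full2_injective : Function.Injective (full2 (F := F)) := by
  rintro ⟨x, y, z⟩ ⟨x', y', z'⟩ h
  simp [full2] at h
  obtain ⟨⟨h1, h2⟩, h3, h4⟩ := h
  refine Prod.ext (funext fun i => ?_) (Prod.ext (funext fun i => ?_) rfl) <;> fin_cases i <;>
    assumption

/-- the plus type form -/
abbrev QP (F : Type*) [Field F] (m : ℕ) : QuadraticForm F (HV F m PUnit.{1}) := HS m 0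

theorem mem_eichPar_iff {V : Type*} [AddCommGroup V] [Module F V] {Q : QuadraticForm F V} {u w : V}
    {hu : Q u = 0} {H : Subgroup (OG Q)} (hw : B Q u w = 0) :
    w ∈ eichPar Q u hu H ↔ eich Q u w hu hw ∈ H := ⟨fun h => h.2, fun h => ⟨hw, h⟩⟩

theorem B_zero {V : Type*} [AddCommGroup V] [Module F V] (x y : V) :
    B (0 : QuadraticForm F V) x y = 0 := by simp [B, QuadraticMap.polar]

theorem full2_relE1 (c : F) (hw) (v : HV F 2 PUnit.{1}) :
    (SpecialLinearGroup.transvection (zero_ne_one' (Fin 2)) (-c)).1 * full2 v *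
      (1 : SpecialLinearGroup (Fin 2) F).1ᵀ =
    full2 ((eich (QP F 2) (hE F _ 0) (c • hE F _ 1) (hyp_HS 0).he hw).1 v) := by
  ext i j
  fin_cases i <;> fin_cases j <;>
    simp [full2, eich_apply, HS_B, HS_apply, hE, hF, SpecialLinearGroup.transvection, B_zero,
      Matrix.transvection, Matrix.mul_apply, Fin.sum_univ_two] <;> ring

theorem full2_relE2 (c : F) (hw) (v : HV F 2 PUnit.{1}) :
    (1 : SpecialLinearGroup (Fin 2) F).1 * full2 v *
      (SpecialLinearGroup.transvection (zero_ne_one' (Fin 2)) c).1ᵀ =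
    full2 ((eich (QP F 2) (hE F _ 0) (c • hF F _ 1) (hyp_HS 0).he hw).1 v) := by
  ext i j
  fin_cases i <;> fin_cases j <;>
    simp [full2, eich_apply, HS_B, HS_apply, hE, hF, SpecialLinearGroup.transvection, B_zero,
      Matrix.transvection, Matrix.mul_apply, Fin.sum_univ_two] <;> ring

theorem full2_relF1 (c : F) (hw) (v : HV F 2 PUnit.{1}) :
    (1 : SpecialLinearGroup (Fin 2) F).1 * full2 v *
      (SpecialLinearGroup.transvection (one_ne_zero' (Fin 2)) (-c)).1ᵀ =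
    full2 ((eich (QP F 2) (hF F _ 0) (c • hE F _ 1) (hyp_HS 0).hf hw).1 v) := by
  ext i j
  fin_cases i <;> fin_cases j <;>
    simp [full2, eich_apply, HS_B, HS_apply, hE, hF, SpecialLinearGroup.transvection, B_zero,
      Matrix.transvection, Matrix.mul_apply, Fin.sum_univ_two] <;> ring

theorem full2_relF2 (c : F) (hw) (v : HV F 2 PUnit.{1}) :
    (SpecialLinearGroup.transvection (one_ne_zero' (Fin 2)) c).1 * full2 v *
      (1 : SpecialLinearGroup (Fin 2) F).1ᵀ =
    full2 ((eich (QP F 2) (hF F _ 0) (c • hF F _ 1) (hyp_HS 0).hf hw).1 v) := by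
  ext i j
  fin_cases i <;> fin_cases j <;>
    simp [full2, eich_apply, HS_B, HS_apply, hE, hF, SpecialLinearGroup.transvection, B_zero,
      Matrix.transvection, Matrix.mul_apply, Fin.sum_univ_two] <;> ring

theorem eq_of_orth_two {W : Type*} [AddCommGroup W] [Module F W] {Q0 : QuadraticForm F W}
    {w : HV F 2 W} (h1 : B (HS 2 Q0) (hE F W 0) w = 0) (h2 : B (HS 2 Q0) (hF F W 0) w = 0) :
    w = w.1 1 • hE F W 1 + w.2.1 1 • hF F W 1 + (0, 0, w.2.2) := by
  rw [hE_B] at h1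
  rw [hF_B] at h2
  refine Prod.ext (funext fun i => ?_) (Prod.ext (funext fun i => ?_) ?_)
  · fin_cases i <;> simp [hE, hF, h2]
  · fin_cases i <;> simp [hE, hF, h1]
  · simp [hE, hF]

theorem prod_eq_top {G A : Type*} [Group G] [Group A] (H : Subgroup (G × A))
    (h1 : H.comap (MonoidHom.inl G A) = ⊤) (h2 : H.comap (MonoidHom.inr G A) = ⊤) : H = ⊤ := by
  rw [eq_top_iff]
  rintro ⟨g, a⟩ -
  have k1 : g ∈ H.comap (MonoidHom.inl G A) := h1 ▸ Subgroup.mem_top _
  have k2 : a ∈ H.comap (MonoidHom.inr G A) := h2 ▸ Subgroup.mem_top _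
  simpa using H.mul_mem k1 k2

theorem exists_hom_full2 :
    ∃ φ : SpecialLinearGroup (Fin 2) F × SpecialLinearGroup (Fin 2) F →* OG (QP F 2),
    φ.range = EG _ ∧ ∀ g v, g.1.1 * full2 v * g.2.1ᵀ = full2 ((φ g).1 v) := by
  refine exists_hom_of_act (fun (g : SpecialLinearGroup (Fin 2) F × SpecialLinearGroup (Fin 2) F)
    X => g.1.1 * X * g.2.1ᵀ) (by simp) (by simp [Matrix.mul_assoc]) full2 full2_injective
    (fun H hH => ?_) (fun H hH => ?_)
  · refine prod_eq_top H (sl_eq_top_of_transvection_mem _ (fin_two_cases (fun c => ?_) fun c => ?_))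
      (sl_eq_top_of_transvection_mem _ (fin_two_cases (fun c => ?_) fun c => ?_))
    · rw [← neg_neg c]
      exact hH _ _ (eich_mem_EG _ _) 
        (full2_relE1 (-c) (by rw [hE_B]; simp [hE]))
    · exact hH _ _ (eich_mem_EG _ _) 
        (full2_relF2 c (by rw [hF_B]; simp [hF]))
    · exact hH _ _ (eich_mem_EG _ _) 
        (full2_relE2 c (by rw [hE_B]; simp [hF]))
    · rw [← neg_neg c]
      exact hH _ _ (eich_mem_EG _ _) 
        (full2_relF1 (-c) (by rw [hF_B]; simp [hE]))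
  · refine (hyp_HS 0).EG_le (rad0_HS bnondeg_zero.rad0) H (fun w h1 h2 => ?_) (fun w h1 h2 => ?_)
    · rw [← mem_eichPar_iff, eq_of_orth_two h1 h2]
      exact AddSubgroup.add_mem _ (AddSubgroup.add_mem _ ⟨by rw [hE_B]; simp [hE], hH (_, 1) _
        (full2_relE1 _ _)⟩ ⟨by rw [hE_B]; simp [hF], hH (1, _) _ (full2_relE2 _ _)⟩)
        (AddSubgroup.zero_mem _)
    · rw [← mem_eichPar_iff, eq_of_orth_two h1 h2]
      exact AddSubgroup.add_mem _ (AddSubgroup.add_mem _ ⟨by rw [hF_B]; simp [hE], hH (1, _) _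
        (full2_relF1 _ _)⟩ ⟨by rw [hF_B]; simp [hF], hH (_, 1) _ (full2_relF2 _ _)⟩)
        (AddSubgroup.zero_mem _)

theorem pomega_four_plus_equiv (ha : ∃ a : F, a ≠ 0 ∧ a ≠ 1) :
    Nonempty (Cfsg.POmega F (Cfsg.quadFormPlus 2 F) ≃*
      ProjectiveSpecialLinearGroup (Fin 2) F × ProjectiveSpecialLinearGroup (Fin 2) F) := by
  obtain ⟨φ, hφ, hR⟩ := exists_hom_full2 (F := F)
  have hB := bnondeg_HS (m := 2) (bnondeg_zero (F := F))
  have hV : 3 ≤ Module.finrank F (HV F 2 PUnit.{1}) := by rw [finrank_HV]; omega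
  obtain ⟨e⟩ := nonempty_quotCenter_equiv_of_range φ _ hφ fun g hg => by
    have hg' : φ g ∈ EG _ := hφ ▸ ⟨g, rfl⟩
    obtain ⟨c, hc0, hc⟩ : ∃ c : F, c ≠ 0 ∧ ∀ x, (φ g).1 x = c • x := by
      rcases ((hyp_HS 0).mem_center_iff hB hV ⟨φ g, hg'⟩).mp
        (Subgroup.mem_center_iff.mpr fun η => Subtype.ext (hg η η.2).symm) with h | h
      · exact ⟨1, one_ne_zero, fun x => by simp only at h; simp [h]⟩
      · exact ⟨-1, by simp, fun x => by simp only at h; simp [h, negO_apply]⟩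
    have k1 := hR g (hE F _ 0)
    have k2 := hR g (hF F _ 0)
    have k3 := hR g (hE F _ 1)
    rw [hc] at k1 k2 k3
    have a1 := congrFun (congrFun k1 0) 0
    have a2 := congrFun (congrFun k1 0) 1
    have a3 := congrFun (congrFun k1 1) 0
    have a4 := congrFun (congrFun k2 1) 1
    have a5 := congrFun (congrFun k2 0) 1
    have a6 := congrFun (congrFun k2 1) 0
    have a7 := congrFun (congrFun k3 0) 1
    simp only [full2, hE, hF, Matrix.mul_apply, Fin.sum_univ_two] at a1 a2 a3 a4 a5 a6 a7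
    simp at a1 a2 a3 a4 a5 a6 a7
    have b1 := left_ne_zero_of_mul (a1 ▸ hc0)
    have b2 := right_ne_zero_of_mul (a1 ▸ hc0)
    have b3 := left_ne_zero_of_mul (a4 ▸ hc0)
    have b4 := right_ne_zero_of_mul (a4 ▸ hc0)
    rw [Subgroup.center_prod]
    exact ⟨sl2_mem_center_of (a5.resolve_right b4) (a3.resolve_right b2)
      (mul_right_cancel₀ b4 (a7.trans a4.symm)), sl2_mem_center_of (a6.resolve_left b3)
      (a2.resolve_left b1) (mul_left_cancel₀ b1 (a1.trans a7.symm))⟩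
  obtain ⟨e'⟩ := nonempty_quotCenter_prod (G := SpecialLinearGroup (Fin 2) F)
    (A := SpecialLinearGroup (Fin 2) F)
  obtain ⟨a, a0, a1⟩ := ha
  exact ⟨(pomegaEquiv (oPlus 2 F) ((hyp_HS 0).commutator_eq_of_le hB.rad0 hV
    ((hyp_HS 0).EG_le_commutator_of_scalar hB.rad0 a0 a1))).trans (e.symm.trans e')⟩

/-! ### Dimension four, minus type -/

/-- `K` with its involution is the quadratic extension of `F` with norm form `Q2 a b` -/
structure QExt (a b : F) (K : Type*) [Field K] [StarRing K] where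
  /-- the embedding of the ground field -/
  σ : F →+* K
  /-- the generator -/
  ω : K
  star_σ : ∀ x, star (σ x) = σ x
  tr : star ω = σ a - ω
  nm : ω * star ω = σ b
  inj : ∀ x y, σ x + σ y * ω = 0 → x = 0 ∧ y = 0
  surj : ∀ z, ∃ x y, σ x + σ y * ω = z
  fix : ∀ z, star z = z → ∃ x, σ x = z

namespace QExt

variable {a b : F} {K : Type*} [Field K] [StarRing K] (E : QExt a b K)

/-- coordinates -/
def κ (z : Fin 2 → F) : K := E.σ (z 0) + E.σ (z 1) * E.ω

theorem κ_injective : Function.Injective E.κ := fun z w h => by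
  obtain ⟨h1, h2⟩ := E.inj (z 0 - w 0) (z 1 - w 1) (by
    simp only [κ] at h
    simp only [map_sub]; linear_combination h)
  ext i; fin_cases i
  exacts [sub_eq_zero.mp h1, sub_eq_zero.mp h2]

theorem κ_surjective : Function.Surjective E.κ := fun z => by
  obtain ⟨x, y, h⟩ := E.surj z
  exact ⟨![x, y], h⟩

theorem κ_add (z w : Fin 2 → F) : E.κ (z + w) = E.κ z + E.κ w := by simp [κ]; ring
theorem κ_sub (z w : Fin 2 → F) : E.κ (z - w) = E.κ z - E.κ w := by simp [κ]; ring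
theorem κ_neg (z : Fin 2 → F) : E.κ (-z) = -E.κ z := by simp [κ]; ring
theorem κ_smul (c : F) (z : Fin 2 → F) : E.κ (c • z) = E.σ c * E.κ z := by simp [κ]; ring
theorem κ_zero : E.κ 0 = 0 := by simp [κ]

theorem σ_Q2 (z : Fin 2 → F) : E.σ (Q2 a b z) = E.κ z * star (E.κ z) := by
  have := E.nm
  rw [E.tr] at this
  simp only [Q2_apply, κ, map_add, map_mul, map_pow, star_add, star_mul', E.star_σ, E.tr]
  linear_combination -E.σ (z 1) ^ 2 * this

theorem σ_B (z w : Fin 2 → F) :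
    E.σ (B (Q2 a b) z w) = E.κ z * star (E.κ w) + E.κ w * star (E.κ z) := by
  have h1 := congrArg E.σ (Q_add (Q2 a b) z w)
  rw [map_add E.σ, map_add E.σ, σ_Q2, σ_Q2, σ_Q2, κ_add, star_add] at h1
  linear_combination -h1

/-- Hermitian `2 × 2` matrices -/
def herm2 (v : HV F 1 (Fin 2 → F)) : Matrix (Fin 2) (Fin 2) K :=
  !![E.σ (v.1 0), E.κ v.2.2; star (E.κ v.2.2), -E.σ (v.2.1 0)]

theorem herm2_injective : Function.Injective E.herm2 := by
  rintro ⟨x, y, z⟩ ⟨x', y', z'⟩ h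
  simp [herm2] at h
  obtain ⟨⟨h1, h2⟩, -, h3⟩ := h
  refine Prod.ext (funext fun i => ?_) (Prod.ext (funext fun i => ?_) (E.κ_injective h2)) <;>
    fin_cases i
  exacts [E.σ.injective h1, E.σ.injective h3]

theorem herm2_rel01 (c : Fin 2 → F) (hw) (v : HV F 1 (Fin 2 → F)) :
    (SpecialLinearGroup.transvection (zero_ne_one' (Fin 2)) (E.κ c)).1 * E.herm2 v *
      (SpecialLinearGroup.transvection (zero_ne_one' (Fin 2)) (E.κ c)).1ᴴ =
    E.herm2 ((eich (HS 1 (Q2 a b)) (hE F _ 0) (0, 0, c) (hyp_HS 0).he hw).1 v) := by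
  ext i j
  fin_cases i <;> fin_cases j <;>
    simp [herm2, eich_apply, HS_B, HS_apply, hE, SpecialLinearGroup.transvection, E.σ_B, E.σ_Q2,
      Matrix.transvection, Matrix.mul_apply, Fin.sum_univ_two, κ_sub, κ_smul, E.star_σ] <;> ring

theorem herm2_rel10 (c : Fin 2 → F) (hw) (v : HV F 1 (Fin 2 → F)) :
    (SpecialLinearGroup.transvection (one_ne_zero' (Fin 2)) (-star (E.κ c))).1 * E.herm2 v *
      (SpecialLinearGroup.transvection (one_ne_zero' (Fin 2)) (-star (E.κ c))).1ᴴ =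
    E.herm2 ((eich (HS 1 (Q2 a b)) (hF F _ 0) (0, 0, c) (hyp_HS 0).hf hw).1 v) := by
  ext i j
  fin_cases i <;> fin_cases j <;>
    simp [herm2, eich_apply, HS_B, HS_apply, hF, SpecialLinearGroup.transvection, E.σ_B, E.σ_Q2,
      Matrix.transvection, Matrix.mul_apply, Fin.sum_univ_two, κ_sub, κ_smul, E.star_σ] <;> ring

include E in
theorem exists_hom_herm2 (h0 : Rad0 (Q2 a b)) :
    ∃ φ : SpecialLinearGroup (Fin 2) K →* OG (HS 1 (Q2 a b)), φ.range = EG _ := by
  refine (exists_hom_of_act (fun (g : SpecialLinearGroup (Fin 2) K) X => g.1 * X * g.1ᴴ)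
    (by simp) (by simp [Matrix.mul_assoc]) E.herm2 E.herm2_injective (fun H hH => ?_)
    (fun H hH => ?_)).imp fun _ h => h.1
  · refine sl_eq_top_of_transvection_mem _ (fin_two_cases (fun c => ?_) fun c => ?_)
    · obtain ⟨c, rfl⟩ := E.κ_surjective c
      exact hH _ _ (eich_mem_EG _ _) (E.herm2_rel01 c (by simp [hE_B]))
    · obtain ⟨d, hd⟩ := E.κ_surjective (-star c)
      have : c = -star (E.κ d) := by simp [hd]
      rw [this]
      exact hH _ _ (eich_mem_EG _ _) (E.herm2_rel10 d (by simp [hF_B]))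
  · refine (hyp_HS 0).EG_le (rad0_HS h0) H (fun w h1 h2 => ?_) (fun w h1 h2 => ?_)
    · rw [eich_congr _ _ (hyp_HS 0).he (by simp [hE_B]) rfl (eq_of_orth_one h1 h2)]
      exact hH _ _ (E.herm2_rel01 _ _)
    · rw [eich_congr _ _ (hyp_HS 0).hf (by simp [hF_B]) rfl (eq_of_orth_one h1 h2)]
      exact hH _ _ (E.herm2_rel10 _ _)

end QExt

/-- the quadratic algebra is a quadratic extension -/
def qextK0 (a b : F) [Fact (∀ r : F, r ^ 2 ≠ -b + a * r)] (hd : a ^ 2 - 4 * b ≠ 0) :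
    QExt a b (K0 a b) where
  σ := algebraMap F _
  ω := QuadraticAlgebra.omega
  star_σ x := by ext <;> simp
  tr := by ext <;> simp
  nm := by ext <;> simp
  inj x y h := by
    have h1 := congrArg QuadraticAlgebra.re h
    have h2 := congrArg QuadraticAlgebra.im h
    simp at h1 h2
    exact ⟨h1, h2⟩
  surj z := ⟨z.re, z.im, by ext <;> simp⟩
  fix z hz := by
    have h1 := congrArg QuadraticAlgebra.re hz
    have h2 := congrArg QuadraticAlgebra.im hz
    rw [QuadraticAlgebra.re_star] at h1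
    rw [QuadraticAlgebra.im_star] at h2
    have h : z.im = 0 := mul_left_cancel₀ hd (by linear_combination a * h1 + 2 * b * h2)
    exact ⟨z.re, by ext <;> simp [h]⟩

theorem pomega_four_minus_equiv [Fintype F] {K : Type*} [Field K] [Fintype K]
    (hK : Fintype.card K = Fintype.card F ^ 2) {a b : F} (hab : Aniso a b) :
    Nonempty (Cfsg.POmega F (Cfsg.quadFormMinus 1 F a b) ≃*
      ProjectiveSpecialLinearGroup (Fin 2) K) := by
  have := hab.fact
  have := Fintype.ofFinite (K0 a b)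
  obtain ⟨φ, hφ⟩ := (qextK0 a b hab.disc_ne).exists_hom_herm2 hab.rad0
  have := ProjectiveSpecialLinearGroup.rank_two_simple (F := K0 a b) (by
    rw [card_K0]
    have : 1 < Nat.card F := Finite.one_lt_card
    nlinarith)
  obtain ⟨e⟩ := nonempty_quotCenter_equiv_of_simple φ _ hφ
    (center_EG_ne_top (rad0_HS hab.rad0) (hyp_HS 0) (by rw [finrank_HV]; simp))
  exact ⟨(pomegaEquiv (oMinus 1 a b) (commutator_HS_one hab.bnondeg
    (fun w hw => hab.eq_zero hw) (by simp))).trans (e.symm.trans (pslCongr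
      (FiniteField.ringEquivOfCardEq (by
        rw [hK, ← Nat.card_eq_fintype_card, card_K0, Nat.card_eq_fintype_card]))))⟩

end Orth

end Cfsg.Agent.Cl
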