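import Cfsg.Agent.Cl.OAdj
import Cfsg.Prelude.Def_ChevB2

/-!
# The Chevalley group of type `B₂` and `Ω₅`
-/

set_option autoImplicit false

namespace Cfsg.Agent.Cl.Orth

open QuadraticMap Matrix

/-- tensors -/
def tXB2 : List (Sp (Unit ⊕ (Fin 2 ⊕ Fin 2))) :=
  [[(.inl (), .inl (), 1), (.inr (.inr 1), .inr (.inl 1), -2)],
   [(.inr (.inr 0), .inr (.inl 0), -1), (.inr (.inr 1), .inr (.inl 1), 1)],
   [(.inr (.inr 0), .inr (.inr 1), -1)],
   [(.inr (.inr 0), .inl (), -1)],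
   [(.inr (.inr 1), .inl (), -1)],
   [(.inr (.inr 0), .inr (.inl 1), -1)],
   [(.inr (.inl 0), .inr (.inr 1), 1)],
   [(.inr (.inl 1), .inl (), 1)],
   [(.inr (.inl 0), .inl (), 1)],
   [(.inr (.inl 0), .inr (.inl 1), 1)]]

/-- forms -/
def tPB2 : List (Sp (Unit ⊕ (Fin 2 ⊕ Fin 2))) :=
  [[(.inl (), .inl (), -1), (.inr (.inr 0), .inr (.inl 0), -1), (.inr (.inr 1), .inr (.inl 1), -1)],
   [(.inl (), .inl (), -2), (.inr (.inl 1), .inr (.inr 1), -1), (.inr (.inr 0), .inr (.inl 0), -2), (.inr (.inr 1), .inr (.inl 1), -1)],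
   [(.inr (.inr 0), .inr (.inr 1), -1), (.inr (.inr 1), .inr (.inr 0), 1)],
   [(.inl (), .inr (.inr 0), 1), (.inr (.inr 0), .inl (), -1)],
   [(.inl (), .inr (.inr 1), 1), (.inr (.inr 1), .inl (), -1)],
   [(.inr (.inl 1), .inr (.inr 0), 1), (.inr (.inr 0), .inr (.inl 1), -1)],
   [(.inr (.inl 0), .inr (.inr 1), 1), (.inr (.inr 1), .inr (.inl 0), -1)],
   [(.inl (), .inr (.inl 1), -1), (.inr (.inl 1), .inl (), 1)],
   [(.inl (), .inr (.inl 0), -1), (.inr (.inl 0), .inl (), 1)],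
   [(.inr (.inl 0), .inr (.inl 1), 1), (.inr (.inl 1), .inr (.inl 0), -1)]]

/-- root data -/
def tRB2 : List ((Unit ⊕ (Fin 2 ⊕ Fin 2)) × (Unit ⊕ (Fin 2 ⊕ Fin 2)) × ℤ) :=
  [(.inr (.inr 0), .inr (.inr 1), -1),
   (.inr (.inr 0), .inl (), -1),
   (.inr (.inr 1), .inl (), -1),
   (.inr (.inr 0), .inr (.inl 1), -1),
   (.inr (.inl 0), .inr (.inr 1), 1),
   (.inr (.inl 1), .inl (), 1),
   (.inr (.inl 0), .inl (), 1),
   (.inr (.inl 0), .inr (.inl 1), 1)]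

/-- position of a basis vector -/
def ixB2 : Cfsg.Lie.chevB2.Idx → ℕ := Sum.elim (fun i => i.val) (fun r => r.val + 2)

/-- the tables -/
def adjB2 : AdjData (Unit ⊕ (Fin 2 ⊕ Fin 2)) Cfsg.Lie.chevB2 where
  S := [(.inl (), .inl (), 1), (.inr (.inl 0), .inr (.inr 0), 1), (.inr (.inl 1), .inr (.inr 1), 1)]
  X j := tXB2.getD (ixB2 j) []
  ψ j := tPB2.getD (ixB2 j) []
  lam j := ([-1, -2, 0, 0, 0, 0, 0, 0, 0, 0] : List ℤ).getD (ixB2 j) 0
  C := [(.inr (.inl 0), .inr (.inr 0), 1)]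
  u r := (tRB2.getD r.val (.inl (), .inl (), 0)).1
  v r := (tRB2.getD r.val (.inl (), .inl (), 0)).2.1
  ε r := (tRB2.getD r.val (.inl (), .inl (), 0)).2.2

theorem goodB2 : adjB2.Good where
  c1 := by decide +kernel
  c1' := by decide +kernel
  c2 := by decide +kernel
  c2' := by decide +kernel
  c3 := by decide +kernel
  c3' := by decide +kernel
  c4 := by decide +kernel
  c5 := by decide +kernel

variable {F : Type*} [Field F]

theorem adjB2_Q (v : Unit ⊕ (Fin 2 ⊕ Fin 2) → F) : Cfsg.quadFormOdd 2 F v = adjB2.Q F v := by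
  rw [AdjData.Q_apply]
  simp [Cfsg.quadFormOdd, adjB2, spM, dotProduct, Matrix.mulVec, Fin.sum_univ_two]
  ring

theorem adjB2_rad0 : Rad0 (adjB2.Q F) :=
  Rad0.congr (eOdd 2 F) (fun v => by rw [← eOdd_Q, adjB2_Q]) (rad0_HS rad0_Q1)

theorem adjB2_map_EG : (EG (adjB2.Q F)).map (goodB2.ad F) = Cfsg.Lie.chevB2.group F :=
  goodB2.map_EG adjB2_rad0 (.inr (.inl 0)) (.inr (.inr 0)) (by decide +kernel) (by decide +kernel)
    (by decide +kernel) (by decide +kernel) (by decide +kernel)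

theorem adjB2_hyp (i : Fin 2) :
    Hyp (adjB2.Q F) (Pi.single (.inr (.inl i)) 1) (Pi.single (.inr (.inr i)) 1) := by
  have h1 : ∀ i : Fin 2, spM ℤ adjB2.S (.inr (.inl i)) (.inr (.inl i)) = 0 := by decide +kernel
  have h2 : ∀ i : Fin 2, spM ℤ adjB2.S (.inr (.inr i)) (.inr (.inr i)) = 0 := by decide +kernel
  have h3 : ∀ i : Fin 2, adjB2.Bz (.inr (.inl i)) (.inr (.inr i)) = 1 := by decide +kernel
  exact ⟨by rw [AdjData.Q_single, h1]; simp, by rw [AdjData.Q_single, h2]; simp,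
    by rw [AdjData.B_single, h3]; simp⟩

theorem adjB2_orth (a b : Unit ⊕ (Fin 2 ⊕ Fin 2)) (h : adjB2.Bz a b = 0) :
    B (adjB2.Q F) (Pi.single a 1) (Pi.single b 1) = 0 := by
  rw [AdjData.B_single, h]; simp

theorem adjB2_perfect (hF : ∃ a : F, a ≠ 0 ∧ a ≠ 1) :
    EG (adjB2.Q F) ≤ ⁅EG (adjB2.Q F), EG (adjB2.Q F)⁆ :=
  (adjB2_hyp 0).perfect_of_scalar adjB2_rad0 (adjB2_hyp 1) (adjB2_orth _ _ (by decide +kernel))
    (adjB2_orth _ _ (by decide +kernel)) (adjB2_orth _ _ (by decide +kernel))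
    (adjB2_orth _ _ (by decide +kernel)) (by simp) hF

theorem chevB2_x_ne_one : Cfsg.Lie.chevB2.xMat F ⟨0, by decide⟩ 1 ≠ 1 := by
  intro h
  have := congrFun (congrFun h (.inr ⟨0, by decide⟩)) (.inr ⟨7, by decide⟩)
  rw [xMat_eq_xMon, show xMon Cfsg.Lie.chevB2 ⟨0, by decide⟩ (.inr ⟨0, by decide⟩)
    (.inr ⟨7, by decide⟩) = [(2, -1)] by decide +kernel, Matrix.one_apply_ne (by decide)] at this
  simp at this

theorem chevB2_equiv_pomega (hF : ∃ a : F, a ≠ 0 ∧ a ≠ 1) :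
    Nonempty (Cfsg.Lie.chevB2.group F ≃* Cfsg.POmega F (Cfsg.quadFormOdd 2 F)) := by
  have hp := adjB2_perfect hF
  obtain ⟨φ⟩ := goodB2.equiv_of_ker adjB2_map_EG _ (goodB2.ker_eq_center adjB2_rad0 (by simp)
    (adjB2_hyp 0) (adjB2_hyp 1) (adjB2_orth _ _ (by decide +kernel))
    (adjB2_orth _ _ (by decide +kernel)) hp _ chevB2_x_ne_one)
  exact ⟨φ.trans (pomegaEquiv (matEquiv _ _ adjB2_Q)
    ((adjB2_hyp 0).commutator_eq_of_perfect adjB2_rad0 (by simp) hp)).symm⟩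

end Cfsg.Agent.Cl.Orth
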