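import Cfsg.Agent.Cl.OLow

/-!
# Orthogonal groups of dimension five and six (plus type); characteristic two
-/

set_option autoImplicit false
set_option linter.unusedSimpArgs false
set_option linter.unnecessarySeqFocus false

namespace Cfsg.Agent.Cl.Orth

open Matrix

variable {F : Type*} [Field F]

/-- alternating `4 × 4` matrices -/
def alt4 (v : HV F 3 PUnit.{1}) : Matrix (Fin 4) (Fin 4) F :=
  !![0, v.1 0, v.1 1, v.1 2; -v.1 0, 0, v.2.1 2, -v.2.1 1; -v.1 1, -v.2.1 2, 0, v.2.1 0;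
    -v.1 2, v.2.1 1, -v.2.1 0, 0]

theorem alt4_injective : Function.Injective (alt4 (F := F)) := by
  rintro ⟨x, y, z⟩ ⟨x', y', z'⟩ h
  simp [alt4] at h
  refine Prod.ext (funext fun i => ?_) (Prod.ext (funext fun i => ?_) rfl) <;> fin_cases i <;>
    simp [h]

theorem alt4_rel01 (c : F) (v : HV F 3 PUnit.{1}) :
    (SpecialLinearGroup.transvection (show (0 : Fin 4) ≠ 1 by decide) c).1 * alt4 v *
      (SpecialLinearGroup.transvection (show (0 : Fin 4) ≠ 1 by decide) c).1ᵀ =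
    alt4 ((eich (QP F 3) (hE F _ 1) (c • hE F _ 2) (hyp_HS 1).he
      (by rw [hE_B]; simp [hE])).1 v) := by
  ext i j
  fin_cases i <;> fin_cases j <;>
    simp [alt4, eich_apply, HS_B, HS_apply, hE, hF, SpecialLinearGroup.transvection, B_zero,
      Matrix.transvection, Matrix.mul_apply, Fin.sum_univ_four, Matrix.one_apply] <;> ring

theorem alt4_rel02 (c : F) (v : HV F 3 PUnit.{1}) :
    (SpecialLinearGroup.transvection (show (0 : Fin 4) ≠ 2 by decide) (-c)).1 * alt4 v *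
      (SpecialLinearGroup.transvection (show (0 : Fin 4) ≠ 2 by decide) (-c)).1ᵀ =
    alt4 ((eich (QP F 3) (hE F _ 0) (c • hE F _ 2) (hyp_HS 0).he
      (by rw [hE_B]; simp [hE])).1 v) := by
  ext i j
  fin_cases i <;> fin_cases j <;>
    simp [alt4, eich_apply, HS_B, HS_apply, hE, hF, SpecialLinearGroup.transvection, B_zero,
      Matrix.transvection, Matrix.mul_apply, Fin.sum_univ_four, Matrix.one_apply] <;> ring

theorem alt4_rel03 (c : F) (v : HV F 3 PUnit.{1}) :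
    (SpecialLinearGroup.transvection (show (0 : Fin 4) ≠ 3 by decide) c).1 * alt4 v *
      (SpecialLinearGroup.transvection (show (0 : Fin 4) ≠ 3 by decide) c).1ᵀ =
    alt4 ((eich (QP F 3) (hE F _ 0) (c • hE F _ 1) (hyp_HS 0).he
      (by rw [hE_B]; simp [hE])).1 v) := by
  ext i j
  fin_cases i <;> fin_cases j <;>
    simp [alt4, eich_apply, HS_B, HS_apply, hE, hF, SpecialLinearGroup.transvection, B_zero,
      Matrix.transvection, Matrix.mul_apply, Fin.sum_univ_four, Matrix.one_apply] <;> ring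

theorem alt4_rel10 (c : F) (v : HV F 3 PUnit.{1}) :
    (SpecialLinearGroup.transvection (show (1 : Fin 4) ≠ 0 by decide) (-c)).1 * alt4 v *
      (SpecialLinearGroup.transvection (show (1 : Fin 4) ≠ 0 by decide) (-c)).1ᵀ =
    alt4 ((eich (QP F 3) (hF F _ 1) (c • hF F _ 2) (hyp_HS 1).hf
      (by rw [hF_B]; simp [hF])).1 v) := by
  ext i j
  fin_cases i <;> fin_cases j <;>
    simp [alt4, eich_apply, HS_B, HS_apply, hE, hF, SpecialLinearGroup.transvection, B_zero,
      Matrix.transvection, Matrix.mul_apply, Fin.sum_univ_four, Matrix.one_apply] <;> ring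

theorem alt4_rel12 (c : F) (v : HV F 3 PUnit.{1}) :
    (SpecialLinearGroup.transvection (show (1 : Fin 4) ≠ 2 by decide) c).1 * alt4 v *
      (SpecialLinearGroup.transvection (show (1 : Fin 4) ≠ 2 by decide) c).1ᵀ =
    alt4 ((eich (QP F 3) (hE F _ 0) (c • hF F _ 1) (hyp_HS 0).he
      (by rw [hE_B]; simp [hF])).1 v) := by
  ext i j
  fin_cases i <;> fin_cases j <;>
    simp [alt4, eich_apply, HS_B, HS_apply, hE, hF, SpecialLinearGroup.transvection, B_zero,
      Matrix.transvection, Matrix.mul_apply, Fin.sum_univ_four, Matrix.one_apply] <;> ring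

theorem alt4_rel13 (c : F) (v : HV F 3 PUnit.{1}) :
    (SpecialLinearGroup.transvection (show (1 : Fin 4) ≠ 3 by decide) c).1 * alt4 v *
      (SpecialLinearGroup.transvection (show (1 : Fin 4) ≠ 3 by decide) c).1ᵀ =
    alt4 ((eich (QP F 3) (hE F _ 0) (c • hF F _ 2) (hyp_HS 0).he
      (by rw [hE_B]; simp [hF])).1 v) := by
  ext i j
  fin_cases i <;> fin_cases j <;>
    simp [alt4, eich_apply, HS_B, HS_apply, hE, hF, SpecialLinearGroup.transvection, B_zero,
      Matrix.transvection, Matrix.mul_apply, Fin.sum_univ_four, Matrix.one_apply] <;> ring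

theorem alt4_rel20 (c : F) (v : HV F 3 PUnit.{1}) :
    (SpecialLinearGroup.transvection (show (2 : Fin 4) ≠ 0 by decide) c).1 * alt4 v *
      (SpecialLinearGroup.transvection (show (2 : Fin 4) ≠ 0 by decide) c).1ᵀ =
    alt4 ((eich (QP F 3) (hF F _ 0) (c • hF F _ 2) (hyp_HS 0).hf
      (by rw [hF_B]; simp [hF])).1 v) := by
  ext i j
  fin_cases i <;> fin_cases j <;>
    simp [alt4, eich_apply, HS_B, HS_apply, hE, hF, SpecialLinearGroup.transvection, B_zero,
      Matrix.transvection, Matrix.mul_apply, Fin.sum_univ_four, Matrix.one_apply] <;> ring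

theorem alt4_rel21 (c : F) (v : HV F 3 PUnit.{1}) :
    (SpecialLinearGroup.transvection (show (2 : Fin 4) ≠ 1 by decide) (-c)).1 * alt4 v *
      (SpecialLinearGroup.transvection (show (2 : Fin 4) ≠ 1 by decide) (-c)).1ᵀ =
    alt4 ((eich (QP F 3) (hF F _ 0) (c • hE F _ 1) (hyp_HS 0).hf
      (by rw [hF_B]; simp [hE])).1 v) := by
  ext i j
  fin_cases i <;> fin_cases j <;>
    simp [alt4, eich_apply, HS_B, HS_apply, hE, hF, SpecialLinearGroup.transvection, B_zero,
      Matrix.transvection, Matrix.mul_apply, Fin.sum_univ_four, Matrix.one_apply] <;> ring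

theorem alt4_rel23 (c : F) (v : HV F 3 PUnit.{1}) :
    (SpecialLinearGroup.transvection (show (2 : Fin 4) ≠ 3 by decide) c).1 * alt4 v *
      (SpecialLinearGroup.transvection (show (2 : Fin 4) ≠ 3 by decide) c).1ᵀ =
    alt4 ((eich (QP F 3) (hE F _ 1) (c • hF F _ 2) (hyp_HS 1).he
      (by rw [hE_B]; simp [hF])).1 v) := by
  ext i j
  fin_cases i <;> fin_cases j <;>
    simp [alt4, eich_apply, HS_B, HS_apply, hE, hF, SpecialLinearGroup.transvection, B_zero,
      Matrix.transvection, Matrix.mul_apply, Fin.sum_univ_four, Matrix.one_apply] <;> ring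

theorem alt4_rel30 (c : F) (v : HV F 3 PUnit.{1}) :
    (SpecialLinearGroup.transvection (show (3 : Fin 4) ≠ 0 by decide) (-c)).1 * alt4 v *
      (SpecialLinearGroup.transvection (show (3 : Fin 4) ≠ 0 by decide) (-c)).1ᵀ =
    alt4 ((eich (QP F 3) (hF F _ 0) (c • hF F _ 1) (hyp_HS 0).hf
      (by rw [hF_B]; simp [hF])).1 v) := by
  ext i j
  fin_cases i <;> fin_cases j <;>
    simp [alt4, eich_apply, HS_B, HS_apply, hE, hF, SpecialLinearGroup.transvection, B_zero,
      Matrix.transvection, Matrix.mul_apply, Fin.sum_univ_four, Matrix.one_apply] <;> ring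

theorem alt4_rel31 (c : F) (v : HV F 3 PUnit.{1}) :
    (SpecialLinearGroup.transvection (show (3 : Fin 4) ≠ 1 by decide) (-c)).1 * alt4 v *
      (SpecialLinearGroup.transvection (show (3 : Fin 4) ≠ 1 by decide) (-c)).1ᵀ =
    alt4 ((eich (QP F 3) (hF F _ 0) (c • hE F _ 2) (hyp_HS 0).hf
      (by rw [hF_B]; simp [hE])).1 v) := by
  ext i j
  fin_cases i <;> fin_cases j <;>
    simp [alt4, eich_apply, HS_B, HS_apply, hE, hF, SpecialLinearGroup.transvection, B_zero,
      Matrix.transvection, Matrix.mul_apply, Fin.sum_univ_four, Matrix.one_apply] <;> ring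

theorem alt4_rel32 (c : F) (v : HV F 3 PUnit.{1}) :
    (SpecialLinearGroup.transvection (show (3 : Fin 4) ≠ 2 by decide) (-c)).1 * alt4 v *
      (SpecialLinearGroup.transvection (show (3 : Fin 4) ≠ 2 by decide) (-c)).1ᵀ =
    alt4 ((eich (QP F 3) (hF F _ 1) (c • hE F _ 2) (hyp_HS 1).hf
      (by rw [hF_B]; simp [hE])).1 v) := by
  ext i j
  fin_cases i <;> fin_cases j <;>
    simp [alt4, eich_apply, HS_B, HS_apply, hE, hF, SpecialLinearGroup.transvection, B_zero,
      Matrix.transvection, Matrix.mul_apply, Fin.sum_univ_four, Matrix.one_apply] <;> ring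

theorem eq_of_orth_three {W : Type*} [AddCommGroup W] [Module F W] {Q0 : QuadraticForm F W}
    {w : HV F 3 W} (h1 : B (HS 3 Q0) (hE F W 0) w = 0) (h2 : B (HS 3 Q0) (hF F W 0) w = 0) :
    w = w.1 1 • hE F W 1 + w.1 2 • hE F W 2 + w.2.1 1 • hF F W 1 + w.2.1 2 • hF F W 2 +
      (0, 0, w.2.2) := by
  rw [hE_B] at h1
  rw [hF_B] at h2
  refine Prod.ext (funext fun i => ?_) (Prod.ext (funext fun i => ?_) ?_)
  · fin_cases i <;> simp [hE, hF, h2]
  · fin_cases i <;> simp [hE, hF, h1]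
  · simp [hE, hF]

theorem exists_hom_alt4 : ∃ φ : SpecialLinearGroup (Fin 4) F →* OG (QP F 3), φ.range = EG _ := by
  refine (exists_hom_of_act (fun (g : SpecialLinearGroup (Fin 4) F) X => g.1 * X * g.1ᵀ)
    (by simp) (by simp [Matrix.mul_assoc]) alt4 alt4_injective (fun H hH => ?_)
    (fun H hH => ?_)).imp fun _ h => h.1
  · refine sl_eq_top_of_transvection_mem _ fun i j hij c => ?_
    fin_cases i <;> fin_cases j
    · exact absurd rfl hij
    · exact hH _ _ (eich_mem_EG _ _) (alt4_rel01 c)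
    · rw [← neg_neg c]
      exact hH _ _ (eich_mem_EG _ _) (alt4_rel02 (-c))
    · exact hH _ _ (eich_mem_EG _ _) (alt4_rel03 c)
    · rw [← neg_neg c]
      exact hH _ _ (eich_mem_EG _ _) (alt4_rel10 (-c))
    · exact absurd rfl hij
    · exact hH _ _ (eich_mem_EG _ _) (alt4_rel12 c)
    · exact hH _ _ (eich_mem_EG _ _) (alt4_rel13 c)
    · exact hH _ _ (eich_mem_EG _ _) (alt4_rel20 c)
    · rw [← neg_neg c]
      exact hH _ _ (eich_mem_EG _ _) (alt4_rel21 (-c))
    · exact absurd rfl hij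
    · exact hH _ _ (eich_mem_EG _ _) (alt4_rel23 c)
    · rw [← neg_neg c]
      exact hH _ _ (eich_mem_EG _ _) (alt4_rel30 (-c))
    · rw [← neg_neg c]
      exact hH _ _ (eich_mem_EG _ _) (alt4_rel31 (-c))
    · rw [← neg_neg c]
      exact hH _ _ (eich_mem_EG _ _) (alt4_rel32 (-c))
    · exact absurd rfl hij
  · refine (hyp_HS 0).EG_le (rad0_HS bnondeg_zero.rad0) H (fun w h1 h2 => ?_) (fun w h1 h2 => ?_)
    · rw [← mem_eichPar_iff, eq_of_orth_three h1 h2]
      exact AddSubgroup.add_mem _ (AddSubgroup.add_mem _ (AddSubgroup.add_mem _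
        (AddSubgroup.add_mem _ ⟨_, hH _ _ (alt4_rel03 _)⟩ ⟨_, hH _ _ (alt4_rel02 _)⟩)
        ⟨_, hH _ _ (alt4_rel12 _)⟩) ⟨_, hH _ _ (alt4_rel13 _)⟩) (AddSubgroup.zero_mem _)
    · rw [← mem_eichPar_iff, eq_of_orth_three h1 h2]
      exact AddSubgroup.add_mem _ (AddSubgroup.add_mem _ (AddSubgroup.add_mem _
        (AddSubgroup.add_mem _ ⟨_, hH _ _ (alt4_rel21 _)⟩ ⟨_, hH _ _ (alt4_rel31 _)⟩)
        ⟨_, hH _ _ (alt4_rel30 _)⟩) ⟨_, hH _ _ (alt4_rel20 _)⟩) (AddSubgroup.zero_mem _)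

theorem pomega_six_plus_equiv : Nonempty (Cfsg.POmega F (Cfsg.quadFormPlus 3 F) ≃*
    ProjectiveSpecialLinearGroup (Fin 4) F) := by
  obtain ⟨φ, hφ⟩ := exists_hom_alt4 (F := F)
  have := psl_isSimpleGroup (ι := Fin 4) (F := F) (by simp)
  obtain ⟨e⟩ := nonempty_quotCenter_equiv_of_simple φ _ hφ
    (center_EG_ne_top (rad0_HS bnondeg_zero.rad0) (hyp_HS 0) (by rw [finrank_HV]; omega))
  exact ⟨(pomegaEquiv (oPlus 3 F) (commutator_HS bnondeg_zero (by omega) (by omega))).trans e.symm⟩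

/-! ### Dimension five -/

/-- alternating `4 × 4` matrices with zero contraction -/
def alt5 : HV F 2 F →ₗ[F] Matrix (Fin 2 ⊕ Fin 2) (Fin 2 ⊕ Fin 2) F where
  toFun v := fromBlocks !![0, v.1 0; -v.1 0, 0] !![v.2.2, v.1 1; v.2.1 1, -v.2.2]
    !![-v.2.2, -v.2.1 1; -v.1 1, v.2.2] !![0, v.2.1 0; -v.2.1 0, 0]
  map_add' v w := by
    ext (i | i) (j | j) <;> fin_cases i <;> fin_cases j <;> simp [add_comm]
  map_smul' a v := by
    ext (i | i) (j | j) <;> fin_cases i <;> fin_cases j <;> simp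

theorem alt5_apply (v : HV F 2 F) : alt5 v =
    fromBlocks !![0, v.1 0; -v.1 0, 0] !![v.2.2, v.1 1; v.2.1 1, -v.2.2]
    !![-v.2.2, -v.2.1 1; -v.1 1, v.2.2] !![0, v.2.1 0; -v.2.1 0, 0] := rfl

/-- a left inverse of `alt5` -/
def alt5' : Matrix (Fin 2 ⊕ Fin 2) (Fin 2 ⊕ Fin 2) F →ₗ[F] HV F 2 F where
  toFun X := (![X (.inl 0) (.inl 1), X (.inl 0) (.inr 1)], ![X (.inr 0) (.inr 1), X (.inl 1) (.inr 0)],
    X (.inl 0) (.inr 0))
  map_add' v w := by simp
  map_smul' a v := by simp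

theorem alt5'_apply (X : Matrix (Fin 2 ⊕ Fin 2) (Fin 2 ⊕ Fin 2) F) : alt5' X =
    (![X (.inl 0) (.inl 1), X (.inl 0) (.inr 1)], ![X (.inr 0) (.inr 1), X (.inl 1) (.inr 0)],
    X (.inl 0) (.inr 0)) := rfl

theorem alt5_injective : Function.Injective (alt5 (F := F)) := by
  refine Function.LeftInverse.injective (g := alt5') fun v => ?_
  refine Prod.ext (funext fun i => ?_) (Prod.ext (funext fun i => ?_) rfl) <;> fin_cases i <;>
    simp [alt5_apply, alt5'_apply]

theorem exists_OG_of_map {V : Type*} [AddCommGroup V] [Module F V] [FiniteDimensional F V]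
    {Q : QuadraticForm F V} (h0 : Rad0 Q) (L : V →ₗ[F] V) (hL : ∀ x, Q (L x) = Q x) :
    ∃ η : OG Q, ∀ x, η.1 x = L x := by
  have : Function.Injective L := by
    rw [injective_iff_map_eq_zero]
    intro x hx
    exact h0 x (by rw [← hL, hx, map_zero]) fun y => by rw [← B_congr L hL, hx, map_zero]
  exact ⟨⟨LinearEquiv.ofInjectiveEndo L this, hL⟩, fun x => rfl⟩

theorem spTv_coe {l : Type*} [Fintype l] [DecidableEq l] (v : l ⊕ l → F) (a : F) :
    (spTv v a).1 = 1 + a • vecMulVec v (J l F *ᵥ v) := rfl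

theorem J_mulVec_inl {l : Type*} [Fintype l] [DecidableEq l] (v : l ⊕ l → F) (i : l) :
    (J l F *ᵥ v) (.inl i) = -v (.inr i) := by
  simp [J, fromBlocks_mulVec, neg_mulVec]

theorem J_mulVec_inr {l : Type*} [Fintype l] [DecidableEq l] (v : l ⊕ l → F) (i : l) :
    (J l F *ᵥ v) (.inr i) = v (.inl i) := by
  simp [J, fromBlocks_mulVec, neg_mulVec]

theorem alt5_J (x : HV F 2 F) : alt5 x * J (Fin 2) F * alt5 x = -HS 2 (Q1 F) x • J (Fin 2) F := by
  ext (i | i) (j | j) <;> fin_cases i <;> fin_cases j <;>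
    simp [alt5_apply, J, fromBlocks_multiply, HS_apply, Q1_apply, dotProduct] <;> ring

theorem alt5_transpose (x : HV F 2 F) : (alt5 x)ᵀ = -alt5 x := by
  ext (i | i) (j | j) <;> fin_cases i <;> fin_cases j <;> simp [alt5_apply]

theorem alt5_trace (x : HV F 2 F) : (alt5 x * J (Fin 2) F).trace = 0 := by
  simp [alt5_apply, J, fromBlocks_multiply, trace, Fintype.sum_sum_type]

theorem alt5_alt5' (h2 : (2 : F) ≠ 0) {Y : Matrix (Fin 2 ⊕ Fin 2) (Fin 2 ⊕ Fin 2) F}
    (h1 : Yᵀ = -Y) (h3 : (Y * J (Fin 2) F).trace = 0) : alt5 (alt5' Y) = Y := by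
  have k : ∀ i j, Y j i = -Y i j := fun i j => congrFun (congrFun h1 i) j
  have k0 : ∀ i, Y i i = 0 := fun i => mul_left_cancel₀ h2 (by linear_combination k i i)
  have k1 : Y (.inl 1) (.inr 1) = -Y (.inl 0) (.inr 0) := by
    simp [J, trace, Fintype.sum_sum_type, Matrix.mul_apply, Matrix.one_apply, k (.inl _) (.inr _)]
      at h3
    exact mul_left_cancel₀ h2 (by linear_combination h3)
  ext (i | i) (j | j) <;> fin_cases i <;> fin_cases j <;>
    simp [alt5_apply, alt5'_apply, k0, k1, k (.inl _) (.inr _), k (.inl 0) (.inl 1),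
      k (.inr 0) (.inr 1)]

theorem alt5_sp (h2 : (2 : F) ≠ 0) (g : symplecticGroup (Fin 2) F) : ∃ η : OG (HS 2 (Q1 F)),
    ∀ x, g.1 * alt5 x * g.1ᵀ = alt5 (η.1 x) := by
  have g1 := SymplecticGroup.mem_iff.mp g.2
  have g2 := SymplecticGroup.mem_iff'.mp g.2
  have k : ∀ x, alt5 (alt5' (g.1 * alt5 x * g.1ᵀ)) = g.1 * alt5 x * g.1ᵀ := fun x =>
    alt5_alt5' h2 (by simp [alt5_transpose, Matrix.mul_assoc]) (by
      rw [Matrix.mul_assoc, Matrix.mul_assoc, trace_mul_comm, Matrix.mul_assoc, g2, alt5_trace])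
  obtain ⟨η, hη⟩ := exists_OG_of_map (rad0_HS (m := 2) rad0_Q1)
    (alt5' ∘ₗ LinearMap.mulRight F g.1ᵀ ∘ₗ LinearMap.mulLeft F g.1 ∘ₗ alt5)
    (fun x => by
      have h1 := alt5_J (alt5' (g.1 * alt5 x * g.1ᵀ))
      have h3 : g.1 * alt5 x * g.1ᵀ * J (Fin 2) F * (g.1 * alt5 x * g.1ᵀ) =
          g.1 * (alt5 x * (g.1ᵀ * J (Fin 2) F * g.1) * alt5 x) * g.1ᵀ := by
        simp only [Matrix.mul_assoc]
      rw [k, h3, g2, alt5_J, Matrix.mul_smul, Matrix.smul_mul, g1] at h1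
      have h4 := congrFun (congrFun h1 (.inr 0)) (.inl 0)
      simpa [J] using h4.symm)
  exact ⟨η, fun x => by rw [hη]; exact (k x).symm⟩

/-- a short root element of `Sp₄` -/
def spShortU (c : F) : symplecticGroup (Fin 2) F :=
  ⟨fromBlocks 1 !![0, c; c, 0] 0 1, by
    rw [SymplecticGroup.mem_iff]
    ext (i | i) (j | j) <;> fin_cases i <;> fin_cases j <;>
      simp [J, fromBlocks_multiply, fromBlocks_transpose]⟩

/-- a short root element of `Sp₄` -/
def spShortL (c : F) : symplecticGroup (Fin 2) F :=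
  ⟨fromBlocks 1 0 !![0, c; c, 0] 1, by
    rw [SymplecticGroup.mem_iff]
    ext (i | i) (j | j) <;> fin_cases i <;> fin_cases j <;>
      simp [J, fromBlocks_multiply, fromBlocks_transpose]⟩

theorem alt5_relEE (c : F) (v : HV F 2 F) :
    (spTv (Pi.single (.inl 0) 1) (-c)).1 * alt5 v * (spTv (Pi.single (.inl 0) 1) (-c)).1ᵀ =
    alt5 ((eich (HS 2 (Q1 F)) (hE F _ 0) (c • hE F _ 1) (hyp_HS 0).he (by rw [hE_B]; simp [hE])).1 v) := by
  ext (i | i) (j | j) <;> fin_cases i <;> fin_cases j <;>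
    simp [alt5_apply, eich_apply, HS_B, HS_apply, hE, hF, Q1_B, Q1_apply, spShortU, spShortL,
      spTv_coe, Matrix.mul_apply, Fintype.sum_sum_type, Fin.sum_univ_two, vecMulVec_apply,
      J, Matrix.one_apply, Pi.single_apply] <;> ring

theorem alt5_relEF (c : F) (v : HV F 2 F) :
    (spTv (Pi.single (.inl 1) 1) c).1 * alt5 v * (spTv (Pi.single (.inl 1) 1) c).1ᵀ =
    alt5 ((eich (HS 2 (Q1 F)) (hE F _ 0) (c • hF F _ 1) (hyp_HS 0).he (by rw [hE_B]; simp [hF])).1 v) := by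
  ext (i | i) (j | j) <;> fin_cases i <;> fin_cases j <;>
    simp [alt5_apply, eich_apply, HS_B, HS_apply, hE, hF, Q1_B, Q1_apply, spShortU, spShortL,
      spTv_coe, Matrix.mul_apply, Fintype.sum_sum_type, Fin.sum_univ_two, vecMulVec_apply,
      J, Matrix.one_apply, Pi.single_apply] <;> ring

theorem alt5_relEZ (c : F) (v : HV F 2 F) :
    (spShortU c).1 * alt5 v * (spShortU c).1ᵀ =
    alt5 ((eich (HS 2 (Q1 F)) (hE F _ 0) (0, 0, c) (hyp_HS 0).he (by simp [hE_B])).1 v) := by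
  ext (i | i) (j | j) <;> fin_cases i <;> fin_cases j <;>
    simp [alt5_apply, eich_apply, HS_B, HS_apply, hE, hF, Q1_B, Q1_apply, spShortU, spShortL,
      spTv_coe, Matrix.mul_apply, Fintype.sum_sum_type, Fin.sum_univ_two, vecMulVec_apply,
      J, Matrix.one_apply, Pi.single_apply] <;> ring

theorem alt5_relFE (c : F) (v : HV F 2 F) :
    (spTv (Pi.single (.inr 1) 1) c).1 * alt5 v * (spTv (Pi.single (.inr 1) 1) c).1ᵀ =
    alt5 ((eich (HS 2 (Q1 F)) (hF F _ 0) (c • hE F _ 1) (hyp_HS 0).hf (by rw [hF_B]; simp [hE])).1 v) := by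
  ext (i | i) (j | j) <;> fin_cases i <;> fin_cases j <;>
    simp [alt5_apply, eich_apply, HS_B, HS_apply, hE, hF, Q1_B, Q1_apply, spShortU, spShortL,
      spTv_coe, Matrix.mul_apply, Fintype.sum_sum_type, Fin.sum_univ_two, vecMulVec_apply,
      J, Matrix.one_apply, Pi.single_apply] <;> ring

theorem alt5_relFF (c : F) (v : HV F 2 F) :
    (spTv (Pi.single (.inr 0) 1) (-c)).1 * alt5 v * (spTv (Pi.single (.inr 0) 1) (-c)).1ᵀ =
    alt5 ((eich (HS 2 (Q1 F)) (hF F _ 0) (c • hF F _ 1) (hyp_HS 0).hf (by rw [hF_B]; simp [hF])).1 v) := by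
  ext (i | i) (j | j) <;> fin_cases i <;> fin_cases j <;>
    simp [alt5_apply, eich_apply, HS_B, HS_apply, hE, hF, Q1_B, Q1_apply, spShortU, spShortL,
      spTv_coe, Matrix.mul_apply, Fintype.sum_sum_type, Fin.sum_univ_two, vecMulVec_apply,
      J, Matrix.one_apply, Pi.single_apply] <;> ring

theorem alt5_relFZ (c : F) (v : HV F 2 F) :
    (spShortL (-c)).1 * alt5 v * (spShortL (-c)).1ᵀ =
    alt5 ((eich (HS 2 (Q1 F)) (hF F _ 0) (0, 0, c) (hyp_HS 0).hf (by simp [hF_B])).1 v) := by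
  ext (i | i) (j | j) <;> fin_cases i <;> fin_cases j <;>
    simp [alt5_apply, eich_apply, HS_B, HS_apply, hE, hF, Q1_B, Q1_apply, spShortU, spShortL,
      spTv_coe, Matrix.mul_apply, Fintype.sum_sum_type, Fin.sum_univ_two, vecMulVec_apply,
      J, Matrix.one_apply, Pi.single_apply] <;> ring

theorem exists_hom_alt5 (h2 : (2 : F) ≠ 0) :
    ∃ φ : symplecticGroup (Fin 2) F →* OG (HS 2 (Q1 F)), φ.range = EG _ := by
  refine (exists_hom_of_act (fun (g : symplecticGroup (Fin 2) F) X => g.1 * X * g.1ᵀ)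
    (by simp) (by simp [Matrix.mul_assoc]) alt5 alt5_injective (fun H hH => ?_)
    (fun H hH => ?_)).imp fun _ h => h.1
  · refine sp_eq_top_of_spTv_mem _ fun v c => ?_
    obtain ⟨d, rfl⟩ : ∃ d, c = d + d := ⟨c / 2, by field_simp; ring⟩
    obtain ⟨η, hη⟩ := alt5_sp h2 (spTv v d)
    refine hH _ (η * η) ((hyp_HS 0).sq_mem_EG (rad0_HS rad0_Q1) (w := (0, 0, 1)) (by simp [hE_B])
      (by simp [hF_B]) (by simp [HS_apply]) η) fun x => ?_
    rw [OG.mul_apply, ← hη, ← hη, spTv_add]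
    simp [Matrix.mul_assoc]
  · refine (hyp_HS 0).EG_le (rad0_HS rad0_Q1) H (fun w h1 h2 => ?_) (fun w h1 h2 => ?_)
    · rw [← mem_eichPar_iff, eq_of_orth_two h1 h2]
      exact AddSubgroup.add_mem _ (AddSubgroup.add_mem _ ⟨_, hH _ _ (alt5_relEE _)⟩
        ⟨_, hH _ _ (alt5_relEF _)⟩) ⟨_, hH _ _ (alt5_relEZ _)⟩
    · rw [← mem_eichPar_iff, eq_of_orth_two h1 h2]
      exact AddSubgroup.add_mem _ (AddSubgroup.add_mem _ ⟨_, hH _ _ (alt5_relFE _)⟩
        ⟨_, hH _ _ (alt5_relFF _)⟩) ⟨_, hH _ _ (alt5_relFZ _)⟩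

theorem pomega_five_equiv (h2 : (2 : F) ≠ 0) :
    Nonempty (Cfsg.POmega F (Cfsg.quadFormOdd 2 F) ≃* Cfsg.PSp 2 F) := by
  obtain ⟨φ, hφ⟩ := exists_hom_alt5 h2
  have := psp_isSimpleGroup (l := Fin 2) (F := F)
    (sp_commutator_eq_top (Or.inr (Or.inl ⟨by simp, h2⟩)))
  obtain ⟨e⟩ := nonempty_quotCenter_equiv_of_simple φ _ hφ
    (center_EG_ne_top (rad0_HS rad0_Q1) (hyp_HS 0) (by rw [finrank_HV]; omega))
  exact ⟨(pomegaEquiv (oOdd 2 F) (commutator_HS (bnondeg_Q1 h2) (by omega) (by simp))).trans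
    e.symm⟩

/-! ### Characteristic two -/

section CharTwo

variable {m : ℕ}

/-- forget the last coordinate -/
def dropZ (F : Type*) [Field F] (m : ℕ) : HV F m F →ₗ[F] (Fin m ⊕ Fin m → F) where
  toFun v := Sum.elim v.1 v.2.1
  map_add' v w := by ext (i | i) <;> rfl
  map_smul' a v := by ext (i | i) <;> rfl

/-- a section of `dropZ` -/
def liftZ (F : Type*) [Field F] (m : ℕ) : (Fin m ⊕ Fin m → F) →ₗ[F] HV F m F where
  toFun v := (fun i => v (.inl i), fun i => v (.inr i), 0)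
  map_add' v w := by ext <;> simp
  map_smul' a v := by ext <;> simp

theorem dropZ_apply (v : HV F m F) : dropZ F m v = Sum.elim v.1 v.2.1 := rfl

theorem liftZ_apply (v : Fin m ⊕ Fin m → F) :
    liftZ F m v = (fun i => v (.inl i), fun i => v (.inr i), 0) := rfl

theorem dropZ_liftZ (v : Fin m ⊕ Fin m → F) : dropZ F m (liftZ F m v) = v := by
  ext (i | i) <;> rfl

theorem liftZ_dropZ (v : HV F m F) : v = liftZ F m (dropZ F m v) + v.2.2 • (0, 0, 1) := by
  ext <;> simp [liftZ_apply, dropZ_apply]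

theorem B_eq_spForm (h2 : (2 : F) = 0) (v w : HV F m F) :
    B (HS m (Q1 F)) v w = spForm (dropZ F m v) (dropZ F m w) := by
  have : ∀ a b : F, a - b = a + b := fun a b => by linear_combination -b * h2
  simp [HS_B, Q1_B, h2, spForm_apply, dropZ_apply, dotProduct, this, Finset.sum_add_distrib,
    mul_comm, add_comm]

theorem eq_of_dropZ (h2 : (2 : F) = 0) {v w : HV F m F} (h1 : dropZ F m v = dropZ F m w)
    (hQ : HS m (Q1 F) v = HS m (Q1 F) w) : v = w := by
  have a1 : v.1 = w.1 := funext fun i => congrFun h1 (.inl i)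
  have a2 : v.2.1 = w.2.1 := funext fun i => congrFun h1 (.inr i)
  rw [HS_apply, HS_apply, a1, a2, add_right_inj, Q1_apply, Q1_apply] at hQ
  have : (v.2.2 - w.2.2) ^ 2 = 0 := by linear_combination hQ + (w.2.2 ^ 2 - v.2.2 * w.2.2) * h2
  exact Prod.ext a1 (Prod.ext a2 (sub_eq_zero.mp (pow_eq_zero_iff two_ne_zero |>.mp this)))

theorem dropZ_map (h2 : (2 : F) = 0) (g : OG (HS m (Q1 F))) (v : HV F m F) :
    dropZ F m (g.1 (liftZ F m (dropZ F m v))) = dropZ F m (g.1 v) := by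
  have : dropZ F m (g.1 (0, 0, 1)) = 0 := by
    have k : ∀ x, B (HS m (Q1 F)) x (g.1 (0, 0, 1)) = 0 := fun x => by
      rw [← OG.B_inv]; simp [HS_B, Q1_B, h2]
    ext (i | i)
    · simpa [hF_B, dropZ_apply] using k (hF F F i)
    · simpa [hE_B, dropZ_apply] using k (hE F F i)
  conv_rhs => rw [liftZ_dropZ v, map_add, map_add, map_smul, map_smul, this, smul_zero, add_zero]

/-- in characteristic two, the odd-dimensional orthogonal group acts on the quotient by the
radical -/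
def toSp (h2 : (2 : F) = 0) : OG (HS m (Q1 F)) →* symplecticGroup (Fin m) F where
  toFun g := ⟨LinearMap.toMatrix' (dropZ F m ∘ₗ g.1.toLinearMap ∘ₗ liftZ F m), by
    rw [mem_sp_iff_spForm]
    intro u v
    simp only [LinearMap.toMatrix'_mulVec, LinearMap.comp_apply, LinearEquiv.coe_coe]
    rw [← B_eq_spForm h2, OG.B_apply, B_eq_spForm h2, dropZ_liftZ, dropZ_liftZ]⟩
  map_one' := sp_ext fun v => by
    simp [sp_smul_def, LinearMap.toMatrix'_mulVec, dropZ_liftZ]
  map_mul' g g' := sp_ext fun v => by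
    simp [sp_smul_def, mul_smul, LinearMap.toMatrix'_mulVec, dropZ_map h2, ← mulVec_mulVec]

theorem toSp_smul (h2 : (2 : F) = 0) (g : OG (HS m (Q1 F))) (v : HV F m F) :
    toSp h2 g • dropZ F m v = dropZ F m (g.1 v) := by
  rw [← dropZ_map h2]
  exact LinearMap.toMatrix'_mulVec _ _

theorem toSp_injective (h2 : (2 : F) = 0) : Function.Injective (toSp (m := m) h2) := by
  rw [injective_iff_map_eq_one]
  intro g hg
  refine OG.ext' fun v => eq_of_dropZ h2 ?_ (OG.Q_apply g v)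
  rw [← toSp_smul h2, hg, one_smul, OG.one_apply]

theorem toSp_refl (h2 : (2 : F) = 0) (v : HV F m F) :
    toSp h2 (refl _ v) = spTv (dropZ F m v) (HS m (Q1 F) v)⁻¹ := by
  refine sp_ext fun x => ?_
  rw [← dropZ_liftZ x, toSp_smul, refl_apply, spTv_smul, B_eq_spForm h2, map_sub, map_smul,
    sub_eq_add_neg, ← neg_smul, neg_eq_iff_add_eq_zero.mpr]
  rw [← two_mul, h2, zero_mul]

theorem exists_toSp_refl (h2 : (2 : F) = 0) (hsq : ∀ a : F, IsSquare a) (v : Fin m ⊕ Fin m → F)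
    (c : F) : ∃ w, toSp h2 (refl _ w) = spTv v c := by
  obtain ⟨t, ht⟩ := hsq (c⁻¹ - HS m (Q1 F) (liftZ F m v))
  refine ⟨liftZ F m v + t • (0, 0, 1), ?_⟩
  rw [toSp_refl]
  congr 1
  · ext (i | i) <;> simp [dropZ_apply, liftZ_apply]
  · rw [inv_eq_iff_eq_inv, ← sub_add_cancel c⁻¹ (HS m (Q1 F) (liftZ F m v)), ht]
    simp [HS_apply, liftZ_apply, Q1_apply, add_comm]

theorem toSp_surjective (h2 : (2 : F) = 0) (hsq : ∀ a : F, IsSquare a) :
    Function.Surjective (toSp (m := m) h2) := by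
  rw [← MonoidHom.range_eq_top]
  refine sp_eq_top_of_spTv_mem _ fun v c => ?_
  obtain ⟨w, hw⟩ := exists_toSp_refl h2 hsq v c
  exact ⟨_, hw⟩

/-- `O_{2m+1} ≅ Sp_{2m}` over perfect fields of characteristic two -/
noncomputable def oddEquivSp (h2 : (2 : F) = 0) (hsq : ∀ a : F, IsSquare a) (m : ℕ) :
    OG (HS m (Q1 F)) ≃* symplecticGroup (Fin m) F :=
  MulEquiv.ofBijective (toSp h2) ⟨toSp_injective h2, toSp_surjective h2 hsq⟩

end CharTwo

end Cfsg.Agent.Cl.Orth
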