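import Cfsg.Agent.Cl.SimpleUniq

/-! Uniqueness of the simple group of order 360. -/

set_option autoImplicit false

namespace Cfsg.Agent.Cl

open MulAction Subgroup Equiv

section
variable {G : Type*} [Group G] [Finite G]

theorem exists_nine_param {P : Sylow 3 G} (hP : Nat.card (P : Subgroup G) = 3 ^ 2) {d : G}
    (hdP : d • P = P) (hd : ∀ y ∈ P, d ^ 2 * y * (d ^ 2)⁻¹ = y⁻¹) :
    ∃ x : ZMod 3 × ZMod 3 → G, (∀ a b, x (a + b) = x a * x b) ∧ Function.Injective x ∧
      (∀ t, x t ∈ P) ∧ ∀ t, d * x t * d⁻¹ = x (-t.2, t.1) := by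
  have hcomm : IsMulCommutative (P : Subgroup G) := IsPGroup.isMulCommutative_of_card_eq_prime_sq hP
  obtain ⟨⟨e, heP⟩, he⟩ := exists_prime_orderOf_dvd_card' (G := (P : Subgroup G)) 3
    (by rw [hP]; norm_num)
  rw [orderOf_mk] at he
  have he3 : e ^ 3 = 1 := he ▸ pow_orderOf_eq_one e
  set f := d * e * d⁻¹ with hf
  have hfP : f ∈ P := conj_mem_sylow hdP heP
  have hf3 : f ^ 3 = 1 := by rw [hf, conj_pow, he3]; simp
  have hef : Commute e f := congrArg Subtype.val (hcomm.is_comm.comm ⟨e, heP⟩ ⟨f, hfP⟩)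
  have hdf : d * f * d⁻¹ = e⁻¹ := by rw [← hd e heP, hf, sq]; group
  let x : ZMod 3 × ZMod 3 → G := fun t => e ^ t.1.val * f ^ t.2.val
  have hadd : ∀ a b, x (a + b) = x a * x b := fun a b => by
    simp only [x, Prod.fst_add, Prod.snd_add, pow_val_add he3, pow_val_add hf3, mul_assoc]
    rw [← mul_assoc (e ^ b.1.val), (hef.pow_pow _ _).eq, mul_assoc]
  have hconj : ∀ t, d * x t * d⁻¹ = x (-t.2, t.1) := fun t => by
    have h1 : e ^ (-t.2).val = (e ^ t.2.val)⁻¹ := by
      rw [eq_inv_iff_mul_eq_one, ← pow_val_add he3, neg_add_cancel, ZMod.val_zero, pow_zero]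
    calc d * x t * d⁻¹ = (d * e * d⁻¹) ^ t.1.val * (d * f * d⁻¹) ^ t.2.val := by
          simp only [x, conj_pow]; group
      _ = x (-t.2, t.1) := by
          simp only [x]
          rw [hdf, h1, inv_pow]
          exact ((hef.pow_pow _ _).inv_left).symm.eq
  refine ⟨x, hadd, injective_of_add_mul hadd fun t ht => ?_,
    fun t => mul_mem (pow_mem heP _) (pow_mem hfP _), hconj⟩
  by_contra h0
  have h1 : x (-t.2, t.1) = 1 := by rw [← hconj, ht]; simp
  have h2 : ∀ t : ZMod 3 × ZMod 3, t ≠ 0 → ∃ s ∈ [t, t + t, (-t.2, t.1), (-t.2, t.1) + (-t.2, t.1),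
      t + (-t.2, t.1), t + t + (-t.2, t.1), t + (-t.2, t.1) + (-t.2, t.1),
      t + t + (-t.2, t.1) + (-t.2, t.1)], s = (1, 0) := by decide
  obtain ⟨s, hs, hs'⟩ := h2 t h0
  have h3 : x s = 1 := by
    simp only [List.mem_cons, List.not_mem_nil, or_false] at hs
    rcases hs with rfl | rfl | rfl | rfl | rfl | rfl | rfl | rfl <;>
      simp only [hadd, ht, h1, mul_one]
  rw [hs'] at h3
  have h4 : e = 1 := by simpa [x, ZMod.val_one] using h3
  rw [h4, orderOf_one] at he
  omega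

variable [IsSimpleGroup G]

theorem conj_eq_inv_of_involution (hG : ¬ IsMulCommutative G) {P : Sylow 3 G}
    (hP : Nat.card (P : Subgroup G) = 3 ^ 2) (hS : Nat.card (Sylow 3 G) ≤ 12)
    (hTI : ∀ Q : Sylow 3 G, Q ≠ P → ((P : Subgroup G) ⊓ Q : Subgroup G) = ⊥) {s : G}
    (hs : s ^ 2 = 1) (hs1 : s ≠ 1) (hsP : s • P = P) : ∀ y ∈ P, s * y * s⁻¹ = y⁻¹ := by
  have hcomm : IsMulCommutative (P : Subgroup G) := IsPGroup.isMulCommutative_of_card_eq_prime_sq hP
  have h3 : 3 ∣ Nat.card G := Dvd.dvd.trans (by rw [hP]; norm_num)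
    (card_subgroup_dvd_card (P : Subgroup G))
  have key : ∀ z ∈ P, Commute s z → z = 1 := fun z hz hc => by
    by_contra hz1
    have h1 := card_dvd_moved (Ω := Sylow 3 G) (H := zpowers z) (c := s)
      (by rintro _ ⟨k, rfl⟩; exact hc.zpow_right k)
      (fun h hh y hy h1 => eq_one_of_smul_sylow_eq (hTI y (by rintro rfl; exact hy hsP))
        ((zpowers_le (H := (P : Subgroup G))).2 hz hh) h1)
    have h2 := four_dvd_moved (X := Sylow 3 G) hG hs
    have h4 : 3 ∣ Nat.card (zpowers z) :=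
      ((P.isPGroup'.to_le ((zpowers_le (H := (P : Subgroup G))).2 hz)).card_eq_or_dvd).resolve_left
        fun h => hz1 (by simpa using h)
    have h5 : {y : Sylow 3 G | s • y ≠ y}.ncard ≤ ({P}ᶜ : Set (Sylow 3 G)).ncard :=
      Set.ncard_le_ncard (by rintro y hy rfl; exact hy hsP)
    rw [Set.ncard_compl, Set.ncard_singleton] at h5
    have h6 := h4.trans h1
    have h7 : {y : Sylow 3 G | s • y ≠ y}.ncard = 0 := by omega
    rw [Set.ncard_eq_zero] at h7
    refine hs1 (eq_one_of_forall_smul_eq (exists_smul_sylow_ne hG h3) fun y => ?_)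
    by_contra hy
    exact (Set.eq_empty_iff_forall_notMem.1 h7) y hy
  intro y hy
  have hy' := conj_mem_sylow hsP hy
  have hc : y * (s * y * s⁻¹) = (s * y * s⁻¹) * y :=
    congrArg Subtype.val (hcomm.is_comm.comm ⟨y, hy⟩ ⟨_, hy'⟩)
  refine eq_inv_of_mul_eq_one_right (key _ (mul_mem hy hy') ?_)
  have hs' : s⁻¹ = s := by rw [inv_eq_iff_mul_eq_one, ← sq, hs]
  have hss : s * s = 1 := by rw [← sq, hs]
  change s * _ = _ * s
  nth_rewrite 2 [hc]
  rw [hs']
  calc s * (y * (s * y * s)) = s * y * s * y * s := by group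
    _ = _ := by group

theorem simple_card_360 (h : Nat.card G = 360) : Nonempty (G ≃* closure zm9.gens) := by
  have hG : ¬ IsMulCommutative G := not_comm_of_not_prime (by rw [h]; norm_num)
  have hn : Nat.card G = 3 ^ (0 + 2) * 40 := h
  have h3 : 3 ∣ Nat.card G := by rw [h]; norm_num
  have hP : ∀ P : Sylow 3 G, Nat.card (P : Subgroup G) = 3 ^ 2 := fun P =>
    card_sylow_of_card_eq P hn (by norm_num)
  obtain ⟨g0, P, hg0⟩ := exists_smul_sylow_ne hG h3
  set Q := g0 • P
  have hcomm : IsMulCommutative (P : Subgroup G) :=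
    IsPGroup.isMulCommutative_of_card_eq_prime_sq (hP P)
  have hS : Nat.card (Sylow 3 G) = 10 := by
    obtain ⟨h1, h2, h4, h5⟩ := card_sylow_cases hG (p := 3) (a := 1) (m := 40) h (by norm_num)
    have h6 : Nat.card (Sylow 3 G) ≠ 40 := fun h6 => by
      refine not_normalizer_le_centralizer hG h3 P ?_
      have h7 := (normalizer (P : Set G)).card_mul_index
      rw [← P.card_eq_index_normalizer, h6, h] at h7
      have h8 : (P : Subgroup G) = normalizer (P : Set G) :=
        eq_of_le_of_card_ge le_normalizer (by rw [hP]; omega)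
      rw [← h8]
      exact le_centralizer (P : Subgroup G)
    have := Nat.le_of_dvd (by norm_num) h1
    rw [h] at h5
    generalize Nat.card (Sylow 3 G) = k at *
    interval_cases k <;> first | rfl | omega | exact absurd h5 (by decide)
  have hTI : ∀ Q : Sylow 3 G, Q ≠ P → ((P : Subgroup G) ⊓ Q : Subgroup G) = ⊥ := fun Q hQ => by
    have h1 := card_dvd_of_le (inf_le_left : (P : Subgroup G) ⊓ Q ≤ P)
    rw [hP, Nat.dvd_prime_pow Nat.prime_three] at h1
    obtain ⟨i, hi, h1⟩ := h1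
    interval_cases i
    · exact card_eq_one.1 h1
    · obtain ⟨t, ht, -⟩ := exists_meetOK hG hn (by norm_num) hQ.symm h1
      have := Nat.le_of_dvd (by norm_num) ht.1
      rw [h] at ht
      exact absurd ht ((by decide : ∀ t ≤ 40, ¬ meetOK 360 3 (0 + 2) 40 t) t this)
    · have h2 := eq_of_le_of_card_ge (inf_le_left : (P : Subgroup G) ⊓ Q ≤ P) (by rw [h1, hP])
      exact absurd (Sylow.ext (P.is_maximal' Q.isPGroup' (inf_eq_left.1 h2))) hQ
  have hreg0 := existsUnique_smul_sylow hg0 (hTI Q hg0) (x := fun t : ↥(P : Subgroup G) => (t : G))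
    Subtype.val_injective (fun t => t.2) (by rw [hS, hP]; rfl)
  have hfaith : ∀ g : G, (∀ y : Sylow 3 G, g • y = y) → g = 1 := fun g hg =>
    eq_one_of_forall_smul_eq ⟨g0, P, hg0⟩ hg
  set D := stabilizer G P ⊓ stabilizer G Q
  have hD : Nat.card D = 4 := by
    have h1 := card_stabilizer_inf (G := G) hg0 fun y hy => by
      obtain ⟨t, ht, -⟩ := hreg0 y hy
      exact ⟨t, smul_sylow_self t.2, ht⟩
    have h2 := (stabilizer G P).index_mul_card
    rw [index_stabilizer_of_transitive, hS, ← h1, hS, h] at h2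
    change 10 * (9 * Nat.card D) = 360 at h2
    omega
  have hinv := fun s hs hs1 hsP => conj_eq_inv_of_involution hG (hP P) (by omega) hTI (s := s)
    hs hs1 hsP
  obtain ⟨d, hd⟩ : ∃ d : D, d ^ 2 ≠ 1 := by
    by_contra! h2
    have := Fintype.ofFinite D
    obtain ⟨a, b, ha, hb, hab⟩ : ∃ a b : D, a ≠ 1 ∧ b ≠ 1 ∧ a ≠ b := by
      obtain ⟨a, b, c, hab, hac, hbc⟩ := Fintype.two_lt_card_iff.1
        (show 2 < Fintype.card D by rw [← Nat.card_eq_fintype_card, hD]; norm_num)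
      by_cases ha : a = 1
      · exact ⟨b, c, ha ▸ hab.symm, ha ▸ hac.symm, hbc⟩
      by_cases hb : b = 1
      · exact ⟨a, c, ha, hb ▸ hbc.symm, hac⟩
      exact ⟨a, b, ha, hb, hab⟩
    refine hab (Subtype.ext (toPermHom_injective_of_simple ⟨g0, P, hg0⟩ ?_))
    ext1 y
    change (a : G) • y = (b : G) • y
    by_cases hy : y = P
    · rw [hy, mem_stabilizer_iff.1 a.2.1, mem_stabilizer_iff.1 b.2.1]
    obtain ⟨t, rfl, -⟩ := hreg0 y hy
    have h1 := hinv a (congrArg Subtype.val (h2 a)) (fun h => ha (Subtype.ext h)) a.2.1 t t.2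
    have h4 := hinv b (congrArg Subtype.val (h2 b)) (fun h => hb (Subtype.ext h)) b.2.1 t t.2
    rw [mul_inv_eq_iff_eq_mul] at h1 h4
    rw [← mul_smul (a : G), ← mul_smul (b : G), h1, h4, mul_smul, mul_smul,
      mem_stabilizer_iff.1 a.2.2,
      mem_stabilizer_iff.1 b.2.2]
  have hd4 : d ^ 4 = 1 := hD ▸ pow_card_eq_one'
  have hdo : orderOf d = 4 := orderOf_eq_prime_pow (p := 2) (n := 1) hd hd4
  obtain ⟨x, hadd, hinj, hxP, hdx⟩ := exists_nine_param (hP P) (d := d) d.2.1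
    (hinv _ (by rw [← pow_mul]; exact congrArg Subtype.val hd4)
      (fun h => hd (Subtype.ext h)) (mem_stabilizer_iff.1 (d ^ 2).2.1))
  refine ZSet.nonempty_equiv zm9 ⟨P, Q, x, d, hadd, fun t => smul_sylow_self (hxP t), hg0,
    existsUnique_smul_sylow hg0 (hTI Q hg0) hinj hxP (by rw [hS]; simp), d.2.1, d.2.2,
    hdx, fun e h1 h2 => ?_, ⟨g0, hg0⟩, hfaith⟩ _ zm9_chk fun _ _ _ _ _ _ => rfl
  have h4 : zpowers d = ⊤ := eq_top_of_card_eq _ (by rw [Nat.card_zpowers, hdo, hD])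
  obtain ⟨k, hk⟩ := mem_powers_iff_mem_zpowers.2 (h4 ▸ mem_top (⟨e, h1, h2⟩ : D))
  exact ⟨k, (congrArg Subtype.val hk).symm⟩

theorem simple_card_360_alt (h : Nat.card G = 360) :
    Nonempty (G ≃* alternatingGroup (Fin 6)) := by
  have : IsSimpleGroup (alternatingGroup (Fin 6)) := alternatingGroup.isSimpleGroup (by simp)
  obtain ⟨e1⟩ := simple_card_360 h
  obtain ⟨e2⟩ := simple_card_360 (G := alternatingGroup (Fin 6)) (by
    have := two_mul_nat_card_alternatingGroup (α := Fin 6)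
    rw [Nat.card_perm, Nat.card_eq_fintype_card (α := Fin 6), Fintype.card_fin] at this
    change _ = 720 at this
    omega)
  exact ⟨e1.trans e2.symm⟩

end

end Cfsg.Agent.Cl
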