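import Cfsg.Agent.Cl.UStd
import Cfsg.Agent.Cl.SimpleBasic
import Cfsg.Agent.Cl.SLCard
import Cfsg.Agent.Cl.SLSimple

/-!
# Small unitary groups: `SU₂(q) ≅ SL₂(q)`, and groups of order dividing 72 are solvable
-/

set_option autoImplicit false
set_option linter.unusedSimpArgs false
set_option linter.unnecessarySeqFocus false

namespace Cfsg.Agent.Cl

universe u

theorem isSolvable_of_forall_simple (n : ℕ)
    (hs : ∀ (G : Type u) [Group G] [Finite G] [IsSimpleGroup G], Nat.card G ∣ n →
      IsMulCommutative G) (G : Type u) [Group G] [Finite G] (hG : Nat.card G ∣ n) :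
    Group.IsSolvable G := by
  induction hk : Nat.card G using Nat.strong_induction_on generalizing G with
  | _ k ih =>
  subst hk
  rcases subsingleton_or_nontrivial G with h | h
  · infer_instance
  by_cases hsim : IsSimpleGroup G
  · exact Group.isSolvable_of_comm (hs G hG).is_comm.comm
  obtain ⟨N, hN, h1, h2⟩ : ∃ N : Subgroup G, N.Normal ∧ N ≠ ⊥ ∧ N ≠ ⊤ := by
    by_contra! H
    exact hsim ⟨fun N hN => or_iff_not_imp_left.mpr (H N hN)⟩
  have e := Subgroup.card_eq_card_quotient_mul_card_subgroup N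
  have p1 : 1 < Nat.card N := (Subgroup.one_lt_card_iff_ne_bot N).mpr h1
  have p2 : 1 < Nat.card (G ⧸ N) := Subgroup.one_lt_index_of_ne_top h2
  have := ih _ (by nlinarith) N ((Dvd.intro_left _ e.symm).trans hG) rfl
  have := ih _ (by nlinarith) (G ⧸ N) ((Dvd.intro _ e.symm).trans hG) rfl
  exact Group.isSolvable_of_ker_le_range N.subtype (QuotientGroup.mk' N) (by simp)

theorem isSolvable_of_card_dvd_72 (G : Type u) [Group G] [Finite G] (hG : Nat.card G ∣ 72) :
    Group.IsSolvable G := by
  refine isSolvable_of_forall_simple 72 (fun G _ _ _ hG => ?_) G hG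
  by_contra hc
  have : Fact (Nat.Prime 3) := ⟨by norm_num⟩
  have h3 : 3 ∣ Nat.card G := by
    by_contra h3
    have : Nat.card G ∣ 2 ^ 3 := Nat.Coprime.dvd_of_dvd_mul_right
      (((Nat.Prime.coprime_iff_not_dvd (by norm_num)).mpr h3).symm.pow_right 2) hG
    obtain ⟨k, -, hk⟩ := (Nat.dvd_prime_pow Nat.prime_two).mp this
    exact not_isPGroup_of_simple hc (p := 2) (IsPGroup.of_card hk)
  obtain ⟨P⟩ : Nonempty (Sylow 3 G) := inferInstance
  have h4 := card_sylow_ne_one hc h3
  have h5 := card_sylow_modEq_one 3 G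
  have h6 : Nat.card (Sylow 3 G) ∣ 8 := Nat.Coprime.dvd_of_dvd_mul_right
    (((Nat.Prime.coprime_iff_not_dvd (by norm_num)).mpr (not_dvd_card_sylow 3 G)).symm.pow_right 2)
    ((P.card_dvd_index.trans (Subgroup.index_dvd_card _)).trans hG)
  have h7 := two_mul_card_dvd_factorial_of_action hc (exists_smul_sylow_ne hc h3)
  have h8 : Nat.card (Sylow 3 G) = 4 := by
    have := Nat.le_of_dvd (by norm_num) h6
    generalize Nat.card (Sylow 3 G) = m at *
    interval_cases m <;> simp_all [Nat.ModEq]
  rw [h8] at h7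
  have h9 : Nat.card G ∣ 12 := Nat.dvd_of_mul_dvd_mul_left two_pos h7
  obtain ⟨Q⟩ : Nonempty (Sylow 2 G) := inferInstance
  have h10 := two_mul_card_dvd_factorial_index hc (sylow_ne_top_of_simple hc Q)
  have h11 : (Q : Subgroup G).index ∣ 3 := Nat.Coprime.dvd_of_dvd_mul_left
    (((Nat.Prime.coprime_iff_not_dvd Nat.prime_two).mpr Q.not_dvd_index).symm.pow_right 2)
    ((Subgroup.index_dvd_card _).trans h9)
  have h12 : Nat.card G ∣ 3 ^ 1 := by
    refine Nat.dvd_of_mul_dvd_mul_left two_pos (h10.trans ?_)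
    exact Nat.factorial_dvd_factorial (Nat.le_of_dvd (by norm_num) h11)
  obtain ⟨k, -, hk⟩ := (Nat.dvd_prime_pow Nat.prime_three).mp h12
  exact not_isPGroup_of_simple hc (p := 3) (IsPGroup.of_card hk)

/-- a field with `q` elements embeds in a field with `q ^ k` elements -/
theorem nonempty_ringHom_of_card {K F : Type*} [Field K] [Field F] [Finite K] [Finite F] {k : ℕ}
    (h : Nat.card F = Nat.card K ^ k) : Nonempty (K →+* F) := by
  have := Fintype.ofFinite K
  have := Fintype.ofFinite F
  obtain ⟨p, hp, n, hpp, hn⟩ := FiniteField.card' K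
  obtain ⟨p', hp', n', hpp', hn'⟩ := FiniteField.card' F
  have : Fact p.Prime := ⟨hpp⟩
  rw [Nat.card_eq_fintype_card, Nat.card_eq_fintype_card] at h
  have e : p' = p := by
    have : p' ∣ (p ^ (n : ℕ)) ^ k := by rw [← hn, ← h, hn']; exact dvd_pow_self _ n'.ne_zero
    exact (Nat.prime_dvd_prime_iff_eq hpp' hpp).mp (hpp'.dvd_of_dvd_pow (hpp'.dvd_of_dvd_pow this))
  subst e
  let _ := ZMod.algebra K p'
  let _ := ZMod.algebra F p'
  have h1 := FiniteField.pow_finrank_eq_card p' K
  have h2 := FiniteField.pow_finrank_eq_card p' F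
  rw [h, ← h1, ← pow_mul] at h2
  obtain ⟨f⟩ := FiniteField.nonempty_algHom_of_finrank_dvd (F := ZMod p') (K := K) (L := F)
    ⟨k, Nat.pow_right_injective hpp.two_le h2⟩
  exact ⟨f⟩

namespace Uni

variable {F : Type*} [Field F] [StarRing F] {V : Type*} [AddCommGroup V] [Module F V]
variable {h : HForm F V}

variable (h) in
/-- the action of a `2 × 2` matrix in the basis `e`, `δ f` -/
def planeL (e f : V) (δ : F) (A : Matrix (Fin 2) (Fin 2) F) : V →ₗ[F] V :=
  (A 0 0 • h.lin f + (A 0 1 * δ⁻¹) • h.lin e).smulRight e +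
    ((A 1 0 * δ) • h.lin f + A 1 1 • h.lin e).smulRight f

theorem planeL_apply (e f : V) (δ : F) (A : Matrix (Fin 2) (Fin 2) F) (x : V) :
    planeL h e f δ A x = (A 0 0 * h x f + A 0 1 * δ⁻¹ * h x e) • e +
      (A 1 0 * δ * h x f + A 1 1 * h x e) • f := rfl

theorem Hyp.planeL_mul {e f : V} (H : Hyp h e f) {δ : F} (hδ : δ ≠ 0)
    (A B : Matrix (Fin 2) (Fin 2) F) (x : V) :
    planeL h e f δ A (planeL h e f δ B x) = planeL h e f δ (A * B) x := by
  simp only [planeL_apply, HForm.add_left, HForm.smul_left, H.hee, H.hff, H.hef, H.hfe,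
    Matrix.mul_apply, Fin.sum_univ_two]
  match_scalars <;> field_simp <;> ring

theorem planeL_one {e f : V} (hp : ∀ x, pr h e f x = 0) (δ : F) (x : V) :
    planeL h e f δ 1 x = x := by
  conv_rhs => rw [eq_pr (h := h) e f x, hp]
  simp [planeL_apply]

/-- `SL₂` of a subfield of fixed elements acts on a hyperbolic plane. -/
noncomputable def Hyp.planeHom {e f : V} (H : Hyp h e f) (hp : ∀ x, pr h e f x = 0) {δ : F}
    (hδ : δ ≠ 0) (hs : star δ = -δ) {K : Type*} [Field K] (ι : K →+* F)
    (hι : ∀ k, star (ι k) = ι k) : Matrix.SpecialLinearGroup (Fin 2) K →* UG h where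
  toFun A := UG.mk' (planeL h e f δ (A.1.map ι)) (planeL h e f δ ((A⁻¹).1.map ι))
    (fun x => by
      rw [H.planeL_mul hδ, ← Matrix.map_mul, ← Matrix.SpecialLinearGroup.coe_mul, mul_inv_cancel]
      simp [planeL_one hp])
    (fun x => by
      rw [H.planeL_mul hδ, ← Matrix.map_mul, ← Matrix.SpecialLinearGroup.coe_mul, inv_mul_cancel]
      simp [planeL_one hp])
    (fun x y => by
      have hd := congrArg ι (sl2_det A)
      conv_rhs => rw [eq_pr (h := h) e f x, eq_pr (h := h) e f y, hp, hp]
      simp only [planeL_apply, HForm.add_left, HForm.smul_left, HForm.add_right, HForm.smul_right,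
        H.hee, H.hff, H.hef, H.hfe, Matrix.map_apply, star_add, star_mul', hι, hs, star_inv₀,
        HForm.star_symm, add_zero, map_sub, map_mul, map_one] at hd ⊢
      field_simp
      linear_combination δ ^ 2 * (h e y * h x f + h f y * h x e) * hd)
  map_one' := UG.ext' fun x => by simp [planeL_one hp]
  map_mul' A B := UG.ext' fun x => by simp [H.planeL_mul hδ, Matrix.map_mul]

theorem IsFrob.su_two_equiv {q : ℕ} (H : IsFrob F q) {K : Type*} [Field K] [Fintype K]
    (hK : Fintype.card K = q) :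
    Nonempty (Cfsg.SU 2 F q ≃* Matrix.SpecialLinearGroup (Fin 2) K) := by
  have := H.fin
  obtain ⟨ι⟩ := nonempty_ringHom_of_card (K := K) (F := F) (k := 2)
    (by rw [H.card, Nat.card_eq_fintype_card, hK])
  have hι : ∀ k, star (ι k) = ι k := fun k => by
    rw [H.star_eq, ← map_pow, ← hK, FiniteField.pow_card]
  obtain ⟨e, f, P⟩ := H.exists_hyp (n := 2) le_rfl
  obtain ⟨δ, hδ, hs⟩ := H.nt.exists_delta
  have hp : ∀ x, pr (stdH F 2) e f x = 0 := by
    have li : LinearIndependent F ![e, f] := by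
      rw [LinearIndependent.pair_iff]
      intro s t hst
      have h1 := congrArg (fun x => stdH F 2 x f) hst
      have h2 := congrArg (fun x => stdH F 2 x e) hst
      simp [P.hee, P.hff, P.hef, P.hfe] at h1 h2
      exact ⟨h1, h2⟩
    have ht := li.span_eq_top_of_card_eq_finrank (by simp)
    intro x
    have hx : x ∈ Submodule.span F (Set.range ![e, f]) := ht ▸ Submodule.mem_top
    rw [Matrix.range_cons_cons_empty, Submodule.mem_span_pair] at hx
    obtain ⟨a, b, rfl⟩ := hx
    simp [pr, P.hee, P.hff, P.hef, P.hfe]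
  let φ := P.planeHom hp hδ hs ι hι
  have hφ : ∀ A x, (φ A).1 x = planeL _ e f δ (A.1.map ι) x := fun _ _ => rfl
  have h1 : φ.range ≤ EG (stdH F 2) := by
    rw [MonoidHom.range_eq_map, Subgroup.map_le_iff_le_comap, top_le_iff]
    refine sl_eq_top_of_transvection_mem _ fun i j hij c => ?_
    rw [Subgroup.mem_comap]
    fin_cases i <;> fin_cases j
    · exact absurd rfl hij
    · have hb : -(ι c * δ⁻¹) + star (-(ι c * δ⁻¹)) = 0 := by simp [hι, hs]
      convert eich_mem_EG (EC.zero P.hee hb) using 1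
      refine UG.ext' fun x => ?_
      rw [hφ, eich_apply]
      conv_rhs => rw [eq_pr (h := stdH F 2) e f x, hp]
      simp [planeL_apply, Matrix.SpecialLinearGroup.transvection, Matrix.transvection, P.hee, P.hfe]
      module
    · have hb : -(ι c * δ) + star (-(ι c * δ)) = 0 := by simp [hι, hs]
      convert eich_mem_EG (EC.zero P.hff hb) using 1
      refine UG.ext' fun x => ?_
      rw [hφ, eich_apply]
      conv_rhs => rw [eq_pr (h := stdH F 2) e f x, hp]
      simp [planeL_apply, Matrix.SpecialLinearGroup.transvection, Matrix.transvection, P.hff, P.hef]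
      module
    · exact absurd rfl hij
  have h2 : Function.Injective φ := by
    rw [injective_iff_map_eq_one]
    intro A hA
    have k1 := hφ A e
    have k2 := hφ A f
    rw [hA, UG.one_apply] at k1 k2
    have a1 := congrArg (fun x => stdH F 2 x f) k1
    have a2 := congrArg (fun x => stdH F 2 x e) k1
    have a3 := congrArg (fun x => stdH F 2 x f) k2
    have a4 := congrArg (fun x => stdH F 2 x e) k2
    simp [planeL_apply, P.hee, P.hff, P.hef, P.hfe, hδ] at a1 a2 a3 a4
    exact sl2_ext (ι.injective (by simp [← a1])) (by simp [a3]) (by simp [a2])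
      (ι.injective (by simp [← a4]))
  have h3 : Nat.card (EG (stdH F 2)) = Nat.card (Matrix.SpecialLinearGroup (Fin 2) K) := by
    have k := H.card_su (n := 2) (by norm_num)
    rw [Nat.card_congr (H.suEquivEG le_rfl).toEquiv] at k
    rw [card_sl_two, hK]
    apply Nat.eq_of_mul_eq_mul_left (show 0 < q + 1 by omega)
    rw [k]
    have := Nat.sq_sub_sq q 1
    simp [Finset.prod_range_succ] at this ⊢
    rw [this]; ring
  have h4 : φ.range = EG (stdH F 2) := by
    have : Finite ((Fin 2 → F) ≃ₗ[F] (Fin 2 → F)) := DFunLike.finite _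
    exact Subgroup.eq_of_le_of_card_ge h1
      (by rw [h3, Nat.card_congr (MonoidHom.ofInjective h2).toEquiv])
  exact ⟨(H.suEquivEG le_rfl).trans ((MonoidHom.ofInjective h2).trans
    (MulEquiv.subgroupCongr h4)).symm⟩

end Uni

end Cfsg.Agent.Cl
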